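import Cfsg.Agent.H2.Root.SLTransvStd

/-! The transvections of SL in characteristic 2 as root involutions. -/

set_option autoImplicit false

namespace Cfsg.Agent.H2

open Cfsg Matrix
open Cfsg.Agent.H64.SLIndex
open scoped MatrixGroups

variable {n : ℕ} {F : Type*} [Field F] [CharP F 2]

local notation "SLn" => Matrix.SpecialLinearGroup (Fin n) F
local notation "Mn" => Matrix (Fin n) (Fin n) F

lemma two_eq_zero' : (2 : F) = 0 := CharTwo.two_eq_zero

/-- In characteristic 2 an element of SL₂ with non-zero trace commutes with no involution. -/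
lemma sl2_involution_eq_one {M N : SL(2, F)} (ht : M 0 0 + M 1 1 ≠ 0) (hN : N * N = 1)
    (hc : M * N = N * M) : N = 1 := by
  have h2 : (2 : F) = 0 := two_eq_zero'
  have n00 := congrArg (fun x : SL(2, F) => x 0 0) hN
  have n01 := congrArg (fun x : SL(2, F) => x 0 1) hN
  have n10 := congrArg (fun x : SL(2, F) => x 1 0) hN
  have n11 := congrArg (fun x : SL(2, F) => x 1 1) hN
  have c01 := congrArg (fun x : SL(2, F) => x 0 1) hc
  have c10 := congrArg (fun x : SL(2, F) => x 1 0) hc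
  have hd := H92.sl2_det N
  simp [H92.sl2_mul_apply, Matrix.one_apply] at n00 n01 n10 n11 c01 c10
  -- the trace of an involution vanishes
  have hτ : (N 0 0 + N 1 1) * N 0 0 = 0 := by linear_combination n00 + hd + h2
  have hτ' : (N 0 0 + N 1 1) * N 1 1 = 0 := by linear_combination n11 + hd + h2
  have htr : N 0 0 + N 1 1 = 0 := by
    by_contra hne
    rw [mul_eq_zero] at hτ hτ'
    exact hne (by rw [hτ.resolve_left hne, hτ'.resolve_left hne, add_zero])
  have hb : N 0 1 * (M 0 0 + M 1 1) = 0 := by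
    linear_combination c01 - M 0 1 * htr + (M 1 1 * N 0 1 + M 0 1 * N 0 0) * h2
  have hcc : N 1 0 * (M 0 0 + M 1 1) = 0 := by
    linear_combination c10 - M 1 0 * htr + (M 0 0 * N 1 0 + M 1 0 * N 1 1) * h2
  rw [mul_eq_zero] at hb hcc
  have hb' := hb.resolve_right ht
  have hc' := hcc.resolve_right ht
  have ha : (N 0 0 + 1) ^ 2 = 0 := by
    rw [hb', zero_mul] at n00
    linear_combination n00 + (N 0 0 + 1) * h2
  have ha' : N 0 0 = 1 := by linear_combination (pow_eq_zero_iff two_ne_zero).1 ha - h2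
  apply H92.sl2_ext <;> simp [Matrix.one_apply, hb', hc', ha']
  linear_combination htr - ha' - h2

lemma sl2_odd_orderOf [Finite F] {M : SL(2, F)} (ht : M 0 0 + M 1 1 ≠ 0) :
    Odd (orderOf M) := by
  by_contra hev
  rw [Nat.not_odd_iff_even] at hev
  obtain ⟨k, hk⟩ := hev
  have hpos : 0 < orderOf M := orderOf_pos M
  have hN : M ^ k * M ^ k = 1 := by rw [← pow_add, ← hk, pow_orderOf_eq_one]
  have h1 : M ^ k = 1 := sl2_involution_eq_one ht hN (by rw [← pow_succ', pow_succ])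
  have := Nat.le_of_dvd (by omega) (orderOf_dvd_of_pow_eq_one h1)
  omega

/-- The transvections. -/
def tvSet (n : ℕ) (F : Type*) [Field F] : Set (Matrix.SpecialLinearGroup (Fin n) F) :=
  {t | ∃ v φ : Fin n → F, ∃ h : φ ⬝ᵥ v = 0, v ≠ 0 ∧ φ ≠ 0 ∧ t = tvFam v φ h 1}

omit [CharP F 2] in
lemma tvFam_zero {v φ : Fin n → F} (h : φ ⬝ᵥ v = 0) : tvFam v φ h 0 = 1 :=
  Subtype.ext (by simp [tvFam_coe])

omit [CharP F 2] in
lemma tvFam_mem_tvSet {v φ : Fin n → F} (h : φ ⬝ᵥ v = 0) (hv : v ≠ 0) (hφ : φ ≠ 0) {c : F}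
    (hc : c ≠ 0) : tvFam v φ h c ∈ tvSet n F :=
  ⟨c • v, φ, by rw [dotProduct_smul, h, smul_zero], smul_ne_zero hc hv, hφ,
    Subtype.ext (by simp [tvFam_coe, smul_vecMulVec])⟩

lemma tvFam_mul_self {v φ : Fin n → F} (h : φ ⬝ᵥ v = 0) (c : F) :
    tvFam v φ h c * tvFam v φ h c = 1 := by
  rw [← tvFam_add, CharTwo.add_self_eq_zero, tvFam_zero]

lemma orderOf_tvSet {t : SLn} (ht : t ∈ tvSet n F) : orderOf t = 2 := by
  obtain ⟨v, φ, h, hv, hφ, rfl⟩ := ht
  exact orderOf_eq_prime (by rw [pow_two, tvFam_mul_self]) (tvFam_ne_one h hv hφ one_ne_zero)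

omit [CharP F 2] in
/-- The product of two involutions squared is their commutator. -/
lemma sq_eq_commutator {G : Type*} [Group G] {a b : G} (ha : a * a = 1) (hb : b * b = 1) :
    (a * b) ^ 2 = a * b * a⁻¹ * b⁻¹ := by
  rw [inv_eq_of_mul_eq_one_right ha, inv_eq_of_mul_eq_one_right hb, pow_two, ← mul_assoc]

omit [CharP F 2] in
lemma orderOf_eq_four {G : Type*} [Group G] {g : G} (h1 : g ^ 2 ≠ 1) (h2 : (g ^ 2) ^ 2 = 1) :
    orderOf g = 4 :=
  orderOf_eq_prime_pow (p := 2) (n := 1) (by simpa using h1)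
    (by rw [show 2 ^ (1 + 1) = 2 * 2 from rfl, pow_mul, h2])

/-- The three kinds of products of two transvections. -/
lemma tvSet_pair [Fintype F] {a b : SLn} (ha : a ∈ tvSet n F) (hb : b ∈ tvSet n F) :
    (a * b = b * a) ∨ (orderOf (a * b) = 4 ∧ (a * b) ^ 2 ∈ tvSet n F) ∨
      (Odd (orderOf (a * b)) ∧ (Fintype.card F = 2 → orderOf (a * b) = 3)) := by
  obtain ⟨v, φ, h, hv, hφ, rfl⟩ := ha
  obtain ⟨w, ψ, h', hw, hψ, rfl⟩ := hb
  have sq : (tvFam v φ h 1 * tvFam w ψ h' 1) ^ 2 =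
      tvFam v φ h 1 * tvFam w ψ h' 1 * (tvFam v φ h 1)⁻¹ * (tvFam w ψ h' 1)⁻¹ :=
    sq_eq_commutator (tvFam_mul_self h 1) (tvFam_mul_self h' 1)
  by_cases hα : φ ⬝ᵥ w = 0 <;> by_cases hβ : ψ ⬝ᵥ v = 0
  · exact Or.inl (tvFam_commute h h' hα hβ 1 1)
  · rw [tvFam_comm_left h h' hα, mul_one, mul_one] at sq
    refine Or.inr (Or.inl ⟨orderOf_eq_four ?_ ?_, ?_⟩) <;> rw [sq]
    · exact tvFam_ne_one hα hw hφ (neg_ne_zero.2 hβ)
    · rw [pow_two, tvFam_mul_self]
    · exact tvFam_mem_tvSet hα hw hφ (neg_ne_zero.2 hβ)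
  · rw [tvFam_comm_right h h' hβ, mul_one, mul_one] at sq
    refine Or.inr (Or.inl ⟨orderOf_eq_four ?_ ?_, ?_⟩) <;> rw [sq]
    · exact tvFam_ne_one hβ hv hψ hα
    · rw [pow_two, tvFam_mul_self]
    · exact tvFam_mem_tvSet hβ hv hψ hα
  · refine Or.inr (Or.inr ?_)
    set w' := (φ ⬝ᵥ w)⁻¹ • w with hw'
    set ψ' := (ψ ⬝ᵥ v)⁻¹ • ψ with hψ'
    have h'' : ψ' ⬝ᵥ w' = 0 := by
      rw [hw', hψ', smul_dotProduct, dotProduct_smul, h', smul_zero, smul_zero]
    have hw1 : φ ⬝ᵥ w' = 1 := by rw [hw', dotProduct_smul, smul_eq_mul, inv_mul_cancel₀ hα]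
    have hv1 : ψ' ⬝ᵥ v = 1 := by rw [hψ', smul_dotProduct, smul_eq_mul, inv_mul_cancel₀ hβ]
    set c := (φ ⬝ᵥ w) * (ψ ⬝ᵥ v) with hc
    have hc0 : c ≠ 0 := mul_ne_zero hα hβ
    have eb : tvFam w ψ h' 1 = tvFam w' ψ' h'' c := by
      apply Subtype.ext
      rw [tvFam_coe, tvFam_coe, hw', hψ', smul_vecMulVec, vecMulVec_smul, smul_smul, smul_smul, hc]
      congr 2
      field_simp
    have e : tvFam v φ h 1 * tvFam w ψ h' 1 =
        planeSLHom h h'' hw1 hv1 (H92.sx 1 * H92.sy c) := by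
      rw [map_mul, eb]
      congr 1
      · exact Subtype.ext (planeMat_sx h 1).symm
      · exact Subtype.ext (by
          show _ = planeMat v w' φ ψ' _
          rw [planeMat_sy h'', CharTwo.neg_eq])
    rw [e, orderOf_injective _ (planeSLHom_injective h h'' hw1 hv1)]
    set M : SL(2, F) := H92.sx 1 * H92.sy c with hM
    have tr : M 0 0 + M 1 1 = c := by
      have h2 : (2 : F) = 0 := two_eq_zero'
      simp [hM, H92.sl2_mul_apply]
      linear_combination (1 - c) * h2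
    refine ⟨sl2_odd_orderOf (by rwa [tr]), fun hq => ?_⟩
    have hc1 : c = 1 := by
      have := FiniteField.pow_card_sub_one_eq_one c hc0
      rwa [hq, pow_one] at this
    have hp := Fact.mk Nat.prime_three
    refine orderOf_eq_prime ?_ ?_
    · rw [hM, hc1]
      have h2 : (2 : F) = 0 := two_eq_zero'
      apply H92.sl2_ext <;> simp [pow_succ, H92.sl2_mul_apply, Matrix.one_apply] <;> grind
    · intro h1
      rw [h1] at tr
      simp [Matrix.one_apply, CharTwo.add_self_eq_zero] at tr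
      exact hc0 tr.symm

theorem tvSet_rootInvolutions [Fintype F] (hn : 3 ≤ n) :
    IsRootInvolutionClass (tvSet n F) ∧
      (Fintype.card F = 2 → IsThreeFourPlusTranspositionSet (tvSet n F)) := by
  have hset : IsRootInvolutionSet (tvSet n F) := {
    orderOf_eq := fun t ht => orderOf_tvSet ht
    generates := by
      refine eq_top_of_tv_mem _ fun v φ hd => ?_
      by_cases hv : v = 0
      · have : tv v φ hd = 1 := Subtype.ext (by simp [tv_coe, hv])
        rw [this]; exact one_mem _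
      by_cases hφ : φ = 0
      · have : tv v φ hd = 1 := Subtype.ext (by simp [tv_coe, hφ])
        rw [this]; exact one_mem _
      exact Subgroup.subset_closure
        ⟨v, φ, hd, hv, hφ, Subtype.ext (by simp [tv_coe, tvFam_coe])⟩
    conj_mem := by
      rintro _ ⟨v, φ, h, hv, hφ, rfl⟩ g
      obtain ⟨w, ψ, h', hw, hψ, e⟩ :=
        tvGroups_isRootSubgroupSet.conj_mem _ ⟨v, φ, h, hv, hφ, rfl⟩ g
      obtain ⟨c, hc⟩ : g * tvFam v φ h 1 * g⁻¹ ∈ tvGroup w ψ h' :=
        e ▸ H92.conj_mem_conjBy (A := tvGroup v φ h) ⟨1, rfl⟩ g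
      rw [← hc]
      refine tvFam_mem_tvSet h' hw hψ fun c0 => tvFam_ne_one h hv hφ one_ne_zero ?_
      rw [c0, tvFam_zero] at hc
      exact conj_eq_one_iff.1 hc.symm
    pair := by
      intro a ha b hb
      rcases tvSet_pair ha hb with h | h | h
      · exact Or.inl h
      · exact Or.inr (Or.inr h)
      · exact Or.inr (Or.inl h.1) }
  refine ⟨⟨hset, ?_, ?_⟩, fun hq => ⟨hset, ?_⟩⟩
  · have h01 : (⟨1, by omega⟩ : Fin n) ≠ ⟨0, by omega⟩ := by simp
    exact ⟨_, _, _, single_dot_single h01 1 1, by simp, by simp, rfl⟩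
  · rintro _ ⟨v, φ, h, hv, hφ, rfl⟩ _ ⟨w, ψ, h', hw, hψ, rfl⟩
    obtain ⟨g, hg⟩ := exists_conj_tv hn hv hφ hw hψ h h'
    refine ⟨g, ?_⟩
    have e : ∀ {v φ : Fin n → F} (h : φ ⬝ᵥ v = 0), tvFam v φ h 1 = tv v φ h := fun h =>
      Subtype.ext (by simp [tv_coe, tvFam_coe])
    rw [e, e, hg]
  · intro a ha b hb hodd
    rcases tvSet_pair ha hb with h | ⟨h, -⟩ | h
    · left
      have h2 : (a * b) ^ 2 = 1 := by
        have ea := pow_orderOf_eq_one a
        have eb := pow_orderOf_eq_one b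
        rw [orderOf_tvSet ha] at ea
        rw [orderOf_tvSet hb] at eb
        rw [Commute.mul_pow h, ea, eb, one_mul]
      rcases (Nat.dvd_prime Nat.prime_two).1 (orderOf_dvd_of_pow_eq_one h2) with e | e
      · exact e
      · rw [e] at hodd; exact absurd hodd (by decide)
    · rw [h] at hodd; exact absurd hodd (by decide)
    · exact Or.inr (h.2 hq)

omit [CharP F 2] in
/-- The set in the statement. -/
theorem elementary_tvSet {i j : Fin n} (hn : 3 ≤ n) (hij : i ≠ j) :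
    {t : SLn | ∃ c : F, c ≠ 0 ∧ ∃ g : SLn,
      ((g⁻¹ * t * g : SLn) : Mn) = Matrix.transvection i j c} = tvSet n F := by
  have h : (Pi.single j (1 : F) : Fin n → F) ⬝ᵥ Pi.single i 1 = 0 := single_dot_single hij.symm 1 1
  ext t
  constructor
  · rintro ⟨c, hc, g, hg⟩
    rw [transvection_eq_tvFam hij] at hg
    have e : t = g * tvFam (Pi.single i 1) (Pi.single j 1) h c * g⁻¹ := by
      rw [← Subtype.ext hg]; simp [mul_assoc]
    obtain ⟨w, ψ, h', hw, hψ, e'⟩ :=
      tvGroups_isRootSubgroupSet.conj_mem _ ⟨_, _, h, by simp, by simp, rfl⟩ g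
    obtain ⟨d, hd⟩ : t ∈ tvGroup w ψ h' := by
      rw [← e', e]
      exact H92.conj_mem_conjBy (A := tvGroup _ _ h) ⟨c, rfl⟩ g
    rw [← hd]
    refine tvFam_mem_tvSet h' hw hψ fun d0 => tvFam_ne_one h (by simp) (by simp) hc ?_
    rw [d0, tvFam_zero, e] at hd
    exact conj_eq_one_iff.1 hd.symm
  · rintro ⟨v, φ, h', hv, hφ, rfl⟩
    obtain ⟨g, hg⟩ := exists_conj_tv hn (v := Pi.single i (1 : F)) (φ := Pi.single j 1) (by simp)
      (by simp) hv hφ h h'
    refine ⟨1, one_ne_zero, g, ?_⟩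
    rw [transvection_eq_tvFam hij]
    have e : tvFam v φ h' 1 = tv v φ h' := Subtype.ext (by simp [tv_coe, tvFam_coe])
    have e' : tvFam (Pi.single i 1) (Pi.single j 1) h 1 = tv _ _ h :=
      Subtype.ext (by simp [tv_coe, tvFam_coe])
    rw [e, e', ← hg]
    simp [mul_assoc]

end Cfsg.Agent.H2
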