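import Cfsg.Agent.H2.Root.SLTransvRoot

/-! The class of elementary transvection subgroups of SL in dimension at least three. -/

set_option autoImplicit false

namespace Cfsg.Agent.H2

open Cfsg Matrix
open Cfsg.Agent.H64.SLIndex

variable {n : ℕ} {F : Type*} [Field F]

lemma single_dot_single {i j : Fin n} (h : i ≠ j) (a b : F) :
    (Pi.single i a : Fin n → F) ⬝ᵥ Pi.single j b = 0 := by
  simp [h]

lemma transvection_eq_tvFam {i j : Fin n} (hij : i ≠ j) (c : F) :
    Matrix.transvection i j c =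
      (tvFam (Pi.single i 1) (Pi.single j 1) (single_dot_single hij.symm 1 1) c :
        Matrix (Fin n) (Fin n) F) := by
  rw [tvFam_coe]
  unfold Matrix.transvection
  ext a b
  simp only [Matrix.add_apply, Matrix.smul_apply, vecMulVec_apply, Matrix.single_apply,
    Pi.single_apply, smul_eq_mul, mul_ite, mul_one, mul_zero, ite_mul, zero_mul, one_mul]
  grind

theorem elementary_class {i j : Fin n} (hn : 3 ≤ n) (hij : i ≠ j) :
    {A : Subgroup (Matrix.SpecialLinearGroup (Fin n) F) |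
      ∃ g : Matrix.SpecialLinearGroup (Fin n) F,
        A = Cfsg.conjBy (Subgroup.closure {t : Matrix.SpecialLinearGroup (Fin n) F |
          ∃ c : F, (t : Matrix (Fin n) (Fin n) F) = Matrix.transvection i j c}) g} =
      tvGroups n F := by
  have h : (Pi.single j (1 : F) : Fin n → F) ⬝ᵥ Pi.single i 1 = 0 := single_dot_single hij.symm 1 1
  have : {t : Matrix.SpecialLinearGroup (Fin n) F |
      ∃ c : F, (t : Matrix (Fin n) (Fin n) F) = Matrix.transvection i j c} =
      (tvGroup (Pi.single i 1) (Pi.single j 1) h : Set _) := by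
    ext t
    simp only [transvection_eq_tvFam hij]
    exact ⟨fun ⟨c, hc⟩ => ⟨c, (Subtype.ext hc).symm⟩, fun ⟨c, hc⟩ => ⟨c, by rw [← hc]⟩⟩
  rw [this, Subgroup.closure_eq]
  exact tvGroups_conjClass hn h (by simp) (by simp)

theorem tvGroups_nondegenerate (hn : 3 ≤ n) : IsNondegenerateRootSet (tvGroups n F) := by
  let e : Fin 3 → Fin n := Fin.castLE hn
  have he : Function.Injective e := Fin.castLE_injective hn
  have h01 : e 0 ≠ e 1 := he.ne (by decide)
  have h02 : e 0 ≠ e 2 := he.ne (by decide)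
  have h12 : e 1 ≠ e 2 := he.ne (by decide)
  have mk : ∀ {i j : Fin n} (h : i ≠ j),
      tvGroup (Pi.single i (1 : F)) (Pi.single j 1) (single_dot_single h.symm 1 1) ∈ tvGroups n F :=
    fun h => ⟨_, _, _, by simp, by simp, rfl⟩
  refine ⟨⟨_, mk h01, _, mk h02, ?_, ?_⟩, ⟨_, mk h01, _, mk h01.symm, ?_⟩, ⟨_, mk h01, _, mk h12, ?_⟩⟩
  · intro eq
    obtain ⟨c, hc⟩ : tvFam (Pi.single (e 0) (1 : F)) (Pi.single (e 1) 1)
        (single_dot_single h01.symm 1 1) 1 ∈
        tvGroup (Pi.single (e 0) (1 : F)) (Pi.single (e 2) 1) (single_dot_single h02.symm 1 1) :=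
      eq ▸ ⟨1, rfl⟩
    have := congrArg (fun g : Matrix.SpecialLinearGroup (Fin n) F =>
      ((g : Matrix (Fin n) (Fin n) F) *ᵥ Pi.single (e 1) 1) (e 0)) hc
    simp [tvFam_coe, Matrix.one_apply, vecMulVec_apply, h12, h01] at this
  · refine H92.commutator_eq_bot_of_commute ?_
    rintro _ ⟨s, rfl⟩ _ ⟨t, rfl⟩
    exact tvFam_commute _ _ (single_dot_single h01.symm 1 1) (single_dot_single h02.symm 1 1) s t
  · exact (tvGroup_pair _ _ (by simp) (by simp)).1
  · rcases tvGroup_cases (single_dot_single h01.symm (1 : F) 1) (single_dot_single h12.symm (1 : F) 1)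
      (by simp) (by simp) (by simp) (by simp) with ⟨h1, -⟩ | ⟨-, h1, -⟩ | ⟨-, h2, -⟩
    · simp at h1
    · exact h1
    · simp [h02.symm] at h2

theorem elementary_class_main (hn : 3 ≤ n) :
    IsRootSubgroupClass (tvGroups n F) ∧ IsNondegenerateRootSet (tvGroups n F) ∧
      IsKRootSubgroupSet F (tvGroups n F) ∧
      IsConnectedFamily (FAdj (tvGroups n F)) (tvGroups n F) := by
  refine ⟨⟨tvGroups_isRootSubgroupSet, ?_, ?_⟩, tvGroups_nondegenerate hn, tvGroups_kRoot,
    tvGroups_connected⟩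
  · have h01 : (⟨1, by omega⟩ : Fin n) ≠ ⟨0, by omega⟩ := by simp
    exact ⟨_, _, _, single_dot_single h01 1 1, by simp, by simp, rfl⟩
  · rintro _ ⟨v, φ, h, hv, hφ, rfl⟩ B hB
    rw [← tvGroups_conjClass hn h hv hφ] at hB
    exact hB

end Cfsg.Agent.H2
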