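import Cfsg.Agent.H2.Root.SUTransv

/-! The unitary transvection groups as a class of abstract root subgroups of the group they generate. -/

set_option autoImplicit false

namespace Cfsg.Agent.H2.UData

open Cfsg Matrix
open scoped MatrixGroups commutatorElement

variable {F : Type*} [Field F] [Fintype F] {q n : ℕ} {L : Type} [Field L] (D : UData F q L)

/-- All transvection groups. -/
def uSet (n : ℕ) : Set (Subgroup (SU n F q)) :=
  {A | ∃ p : Fin n → F, p ≠ 0 ∧ ∃ hp : hermForm n F q p p = 0, A = D.uGroup p hp}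

/-- The group generated by all transvection groups. -/
def uGen (n : ℕ) : Subgroup (SU n F q) := ⨆ A ∈ D.uSet n, A

lemma uGroup_le_uGen {p : Fin n → F} (hp0 : p ≠ 0) (hp : hermForm n F q p p = 0) :
    D.uGroup p hp ≤ D.uGen n :=
  le_iSup₂_of_le (D.uGroup p hp) ⟨p, hp0, hp, rfl⟩ le_rfl

/-- The transvection groups seen inside the group they generate. -/
def gSet (n : ℕ) : Set (Subgroup ↥(D.uGen n)) :=
  (fun A : Subgroup (SU n F q) => A.subgroupOf (D.uGen n)) '' D.uSet n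

lemma mem_gSet {A : Subgroup ↥(D.uGen n)} : A ∈ D.gSet n ↔
    ∃ (p : Fin n → F) (hp : hermForm n F q p p = 0), p ≠ 0 ∧
      A = (D.uGroup p hp).subgroupOf (D.uGen n) := by
  constructor
  · rintro ⟨_, ⟨p, hp0, hp, rfl⟩, rfl⟩; exact ⟨p, hp, hp0, rfl⟩
  · rintro ⟨p, hp, hp0, rfl⟩; exact ⟨_, ⟨p, hp0, hp, rfl⟩, rfl⟩

/-- A transvection as an element of the generated group. -/
def gFam {p : Fin n → F} (hp0 : p ≠ 0) (hp : hermForm n F q p p = 0) (a : L) : ↥(D.uGen n) :=
  ⟨D.uFam p hp a, D.uGroup_le_uGen hp0 hp ⟨a, rfl⟩⟩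

variable {p r : Fin n → F} (hp0 : p ≠ 0) (hp : hermForm n F q p p = 0) (hr0 : r ≠ 0)
  (hr : hermForm n F q r r = 0)

include hp0 in
lemma mem_gGroup {g : ↥(D.uGen n)} :
    g ∈ (D.uGroup p hp).subgroupOf (D.uGen n) ↔ ∃ a, D.gFam hp0 hp a = g := by
  rw [Subgroup.mem_subgroupOf, mem_uGroup]
  exact ⟨fun ⟨a, ha⟩ => ⟨a, Subtype.ext ha⟩, fun ⟨a, ha⟩ => ⟨a, congrArg Subtype.val ha⟩⟩

include hp0 in
lemma gGroup_ne_bot : (D.uGroup p hp).subgroupOf (D.uGen n) ≠ ⊥ := fun e => by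
  have h : D.gFam hp0 hp 1 ∈ (D.uGroup p hp).subgroupOf (D.uGen n) := (D.mem_gGroup hp0 hp).2 ⟨1, rfl⟩
  rw [e, Subgroup.mem_bot] at h
  exact D.uFam_ne_one hp hp0 one_ne_zero (congrArg Subtype.val h)

include hp0 hr0 in
lemma gGroup_commute (h : hermForm n F q p r = 0) :
    ∀ a ∈ (D.uGroup p hp).subgroupOf (D.uGen n), ∀ b ∈ (D.uGroup r hr).subgroupOf (D.uGen n),
      a * b = b * a := by
  intro a ha b hb
  obtain ⟨s, rfl⟩ := (D.mem_gGroup hp0 hp).1 ha
  obtain ⟨t, rfl⟩ := (D.mem_gGroup hr0 hr).1 hb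
  exact Subtype.ext (D.uFam_commute hp hr h s t)

include hp0 hr0 in
lemma gGroup_pair (h : hermForm n F q p r ≠ 0) :
    IsRankOnePair ((D.uGroup p hp).subgroupOf (D.uGen n)) ((D.uGroup r hr).subgroupOf (D.uGen n)) ∧
      IsPSL2PairOver L ((D.uGroup p hp).subgroupOf (D.uGen n))
        ((D.uGroup r hr).subgroupOf (D.uGen n)) := by
  have hrp0 : hermForm n F q r p ≠ 0 := fun e => h ((H3.hermForm_eq_zero_comm D.hF).1 e)
  set c := (hermForm n F q r p * D.δ)⁻¹ with hc
  have hc0 : c ≠ 0 := inv_ne_zero (mul_ne_zero hrp0 D.δ_ne)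
  have hcr : hermForm n F q (c • r) (c • r) = 0 := by
    rw [H3.hermForm_smul_left D.hF, H3.hermForm_smul_right D.hF, hr, mul_zero, mul_zero]
  have hcr0 : c • r ≠ 0 := smul_ne_zero hc0 hr0
  have hrp : hermForm n F q (c • r) p = D.δ⁻¹ := by
    rw [H3.hermForm_smul_left D.hF, hc]
    field_simp
  rw [← D.uGroup_smul hr hc0 hcr]
  have hmem : ∀ M, ∃ g : ↥(D.uGen n),
      ((g : SU n F q) : Matrix.SpecialLinearGroup (Fin n) F) = D.planeSU hp hcr hrp M := fun M => by
    obtain ⟨g, hg, e⟩ := D.planeSU_mem hp hcr hrp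
      (D.uGroup_le_uGen hp0 hp) (D.uGroup_le_uGen hcr0 hcr) M
    exact ⟨⟨g, hg⟩, e⟩
  choose f hf using hmem
  let ψ : SL(2, L) →* ↥(D.uGen n) := MonoidHom.mk' f fun M N => by
    apply Subtype.ext; apply Subtype.ext
    rw [Subgroup.coe_mul, Subgroup.coe_mul, hf, hf, hf, map_mul]
  have hψ : Function.Injective ψ := fun M N e =>
    D.planeSU_injective hp hcr hrp (by rw [← hf, ← hf]; exact congrArg (fun g => g.1.1) e)
  refine pair_of_sl2Hom ψ hψ (fun g => ?_) (fun g => ?_)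
  · have e : ∀ t, ψ (H92.sx t) = D.gFam hp0 hp t := fun t =>
      Subtype.ext (Subtype.ext ((hf _).trans (D.planeSU_sx hp hcr hrp t)))
    simp only [e, D.mem_gGroup hp0 hp]
  · have e : ∀ t, ψ (H92.sy t) = D.gFam hcr0 hcr t := fun t =>
      Subtype.ext (Subtype.ext ((hf _).trans (D.planeSU_sy hp hcr hrp t)))
    simp only [e, D.mem_gGroup hcr0 hcr]

include hp0 hr0 in
lemma gGroup_not_central (h : hermForm n F q p r ≠ 0) {s : Fin n → F} (hs0 : s ≠ 0)
    (hs : hermForm n F q s s = 0)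
    (hle : (D.uGroup s hs).subgroupOf (D.uGen n) ≤
      (D.uGroup p hp).subgroupOf (D.uGen n) ⊔ (D.uGroup r hr).subgroupOf (D.uGen n))
    (hc : ∀ c ∈ (D.uGroup s hs).subgroupOf (D.uGen n),
      ∀ x ∈ (D.uGroup p hp).subgroupOf (D.uGen n) ⊔ (D.uGroup r hr).subgroupOf (D.uGen n),
        c * x = x * c) : False := by
  have hs1 : D.gFam hs0 hs 1 ∈ (D.uGroup s hs).subgroupOf (D.uGen n) :=
    (D.mem_gGroup hs0 hs).2 ⟨1, rfl⟩
  have perp : ∀ {x : Fin n → F} (hx0 : x ≠ 0) (hx : hermForm n F q x x = 0),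
      D.gFam hx0 hx 1 ∈
        (D.uGroup p hp).subgroupOf (D.uGen n) ⊔ (D.uGroup r hr).subgroupOf (D.uGen n) →
      hermForm n F q x s = 0 := by
    intro x hx0 hx hmem
    have e := congrArg (fun g : ↥(D.uGen n) => (g : SU n F q)) (hc _ hs1 _ hmem)
    simp only [gFam, Subgroup.coe_mul] at e
    have e1 := congrArg (fun g : SU n F q =>
      ((g : Matrix.SpecialLinearGroup (Fin n) F) : Matrix (Fin n) (Fin n) F) *ᵥ x) e
    rw [su_mul_mulVec, su_mul_mulVec] at e1
    simp only [uFam_mulVec, H3.hermForm_add_left D.hF, H3.hermForm_smul_left D.hF, hx,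
      mul_zero, zero_smul, add_zero, map_one, mul_one, zero_add] at e1
    rw [left_eq_add, smul_eq_zero] at e1
    have e2 := e1.resolve_right hx0
    simp only [mul_eq_zero, D.δ_ne, false_or] at e2
    rcases e2 with h1 | h1
    · exact h1
    · exact (H3.hermForm_eq_zero_comm D.hF).1 h1
  have hps := perp hp0 hp (Subgroup.mem_sup_left ((D.mem_gGroup hp0 hp).2 ⟨1, rfl⟩))
  have hrs := perp hr0 hr (Subgroup.mem_sup_right ((D.mem_gGroup hr0 hr).2 ⟨1, rfl⟩))
  have hrp : hermForm n F q r p ≠ 0 := fun e => h ((H3.hermForm_eq_zero_comm D.hF).1 e)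
  obtain ⟨v, hv⟩ := H3.exists_hermForm_eq_one D.hF hs0
  set w := v + (-(hermForm n F q v r / hermForm n F q p r)) • p +
    (-(hermForm n F q v p / hermForm n F q r p)) • r with hw
  have hwr : hermForm n F q w r = 0 := by
    simp only [hw, H3.hermForm_add_left D.hF, H3.hermForm_smul_left D.hF, hr]
    field_simp; ring
  have hwp : hermForm n F q w p = 0 := by
    simp only [hw, H3.hermForm_add_left D.hF, H3.hermForm_smul_left D.hF, hp]
    field_simp; ring
  have hws : hermForm n F q w s = 1 := by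
    simp only [hw, H3.hermForm_add_left D.hF, H3.hermForm_smul_left D.hF, hps, hrs, hv]
    ring
  have fix : ∀ g ∈ (D.uGroup p hp).subgroupOf (D.uGen n) ⊔ (D.uGroup r hr).subgroupOf (D.uGen n),
      ((g.1.1 : Matrix.SpecialLinearGroup (Fin n) F) : Matrix (Fin n) (Fin n) F) *ᵥ w = w := by
    intro g hg
    rw [Subgroup.sup_eq_closure] at hg
    induction hg using Subgroup.closure_induction with
    | mem x hx =>
      rcases hx with hx | hx <;>
        first
        | (obtain ⟨a, rfl⟩ := (D.mem_gGroup hp0 hp).1 hx; simp [gFam, uFam_mulVec, hwp])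
        | (obtain ⟨a, rfl⟩ := (D.mem_gGroup hr0 hr).1 hx; simp [gFam, uFam_mulVec, hwr])
    | one => simp
    | mul x y _ _ hx hy =>
      rw [Subgroup.coe_mul, Subgroup.coe_mul, Matrix.SpecialLinearGroup.coe_mul, ← mulVec_mulVec,
        hy, hx]
    | inv x _ hx =>
      conv_lhs => rw [← hx, mulVec_mulVec, ← Matrix.SpecialLinearGroup.coe_mul, ← Subgroup.coe_mul,
        ← Subgroup.coe_mul, inv_mul_cancel]
      simp
  have h2 := fix _ (hle hs1)
  simp only [gFam, uFam_mulVec, map_one, mul_one, hws, add_eq_left, smul_eq_zero] at h2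
  exact h2.elim D.δ_ne hs0

include D in
/-- Through any two isotropic points passes a third one orthogonal to neither. -/
lemma exists_isotropic_adj (h : hermForm n F q p r = 0) (hp0 : p ≠ 0)
    (hp : hermForm n F q p p = 0) (hr0 : r ≠ 0) :
    ∃ s, s ≠ 0 ∧ hermForm n F q s s = 0 ∧ hermForm n F q p s ≠ 0 ∧ hermForm n F q s r ≠ 0 := by
  have h' : hermForm n F q r p = 0 := (H3.hermForm_eq_zero_comm D.hF).1 h
  obtain ⟨x, hx1, hx2⟩ : ∃ x, hermForm n F q x p ≠ 0 ∧ hermForm n F q x r ≠ 0 := by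
    obtain ⟨a, ha⟩ := H3.exists_hermForm_eq_one D.hF hp0
    obtain ⟨b, hb⟩ := H3.exists_hermForm_eq_one D.hF hr0
    by_cases ha' : hermForm n F q a r = 0
    · by_cases hb' : hermForm n F q b p = 0
      · exact ⟨a + b, by simp [H3.hermForm_add_left D.hF, ha, hb'],
          by simp [H3.hermForm_add_left D.hF, ha', hb]⟩
      · exact ⟨b, hb', by simp [hb]⟩
    · exact ⟨a, by simp [ha], ha'⟩
  have hpx : hermForm n F q p x ≠ 0 := fun e => hx1 ((H3.hermForm_eq_zero_comm D.hF).1 e)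
  obtain ⟨z, hz⟩ := H3.exists_trace_eq D.hF (a := -hermForm n F q x x) (by
    rw [← H3.conjQ_apply D.hF, map_neg, H3.conjQ_apply, H3.hermForm_pow_q D.hF])
  set a := z / hermForm n F q p x with ha
  refine ⟨x + a • p, ?_, ?_, ?_, ?_⟩
  · intro e
    have := congrArg (fun v => hermForm n F q v p) e
    simp only [H3.hermForm_add_left D.hF, H3.hermForm_smul_left D.hF, hp,
      H3.hermForm_zero_left D.hF, mul_zero, add_zero] at this
    exact hx1 this
  · simp only [H3.hermForm_add_left D.hF, H3.hermForm_add_right D.hF, H3.hermForm_smul_left D.hF,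
      H3.hermForm_smul_right D.hF, hp]
    have e : a ^ q * hermForm n F q x p = z ^ q := by
      rw [← H3.hermForm_pow_q D.hF p x, ← mul_pow, ha, div_mul_cancel₀ _ hpx]
    have e' : a * hermForm n F q p x = z := div_mul_cancel₀ _ hpx
    linear_combination e + e' + hz
  · intro e
    rw [H3.hermForm_eq_zero_comm D.hF, H3.hermForm_add_left D.hF, H3.hermForm_smul_left D.hF, hp,
      mul_zero, add_zero] at e
    exact hx1 e
  · rwa [H3.hermForm_add_left D.hF, H3.hermForm_smul_left D.hF, h, mul_zero, add_zero]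

lemma gSet_connected : IsConnectedFamily (FAdj (D.gSet n)) (D.gSet n) := by
  intro A hA B hB
  obtain ⟨p, hp, hp0, rfl⟩ := D.mem_gSet.1 hA
  obtain ⟨r, hr, hr0, rfl⟩ := D.mem_gSet.1 hB
  by_cases h : hermForm n F q p r = 0
  · obtain ⟨s, hs0, hs, h1, h2⟩ := D.exists_isotropic_adj h hp0 hp hr0
    have hS : (D.uGroup s hs).subgroupOf (D.uGen n) ∈ D.gSet n := D.mem_gSet.2 ⟨s, hs, hs0, rfl⟩
    exact Relation.ReflTransGen.head ⟨hA, hS, (D.gGroup_pair hp0 hp hs0 hs h1).1⟩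
      (Relation.ReflTransGen.single ⟨hS, hB, (D.gGroup_pair hs0 hs hr0 hr h2).1⟩)
  · exact Relation.ReflTransGen.single ⟨hA, hB, (D.gGroup_pair hp0 hp hr0 hr h).1⟩

/-- A path of rank one pairs makes conjugate. -/
lemma conj_of_reach {G : Type*} [Group G] {S : Set (Subgroup G)} (hS : ∀ A ∈ S, A ≠ ⊥)
    {A B : Subgroup G} (hpath : Relation.ReflTransGen (FAdj S) A B) :
    ∃ g : G, B = conjBy A g := by
  induction hpath with
  | refl => exact ⟨1, (H92.conjBy_one A).symm⟩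
  | @tail C B _ hCB ih =>
    obtain ⟨g, rfl⟩ := ih
    obtain ⟨a, ha, ha1⟩ := H92.ne_one_exists (hS _ hCB.1)
    obtain ⟨b, -, -, e⟩ := hCB.2.2.cond_left a ha ha1
    exact ⟨a * (b⁻¹ * g), by
      rw [← H92.conjBy_conjBy, ← H92.conjBy_conjBy, e, H92.conjBy_conjBy, mul_inv_cancel,
        H92.conjBy_one]⟩

lemma gSet_isRootSubgroupSet : IsRootSubgroupSet (D.gSet n) where
  commutative := by
    intro A hA
    obtain ⟨p, hp, hp0, rfl⟩ := D.mem_gSet.1 hA
    refine ⟨⟨fun x y => ?_⟩⟩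
    obtain ⟨s, hs⟩ := (D.mem_gGroup hp0 hp).1 x.2
    obtain ⟨t, ht⟩ := (D.mem_gGroup hp0 hp).1 y.2
    refine Subtype.ext (Subtype.ext ?_)
    show (x.1.1 : SU n F q) * y.1.1 = y.1.1 * x.1.1
    rw [← hs, ← ht]
    show D.uFam p hp s * D.uFam p hp t = D.uFam p hp t * D.uFam p hp s
    rw [← D.uFam_add, ← D.uFam_add, add_comm]
  ne_bot := by
    intro A hA
    obtain ⟨p, hp, hp0, rfl⟩ := D.mem_gSet.1 hA
    exact D.gGroup_ne_bot hp0 hp
  generates := by
    refine Subgroup.map_injective (Subgroup.subtype_injective _) ?_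
    rw [gSet, iSup_image, Subgroup.map_iSup, ← MonoidHom.range_eq_map, Subgroup.range_subtype]
    conv_rhs => rw [uGen]
    refine iSup_congr fun A => ?_
    rw [Subgroup.map_iSup]
    exact iSup_congr fun hA => Subgroup.map_subgroupOf_eq_of_le (le_iSup₂_of_le A hA le_rfl)
  conj_mem := by
    intro A hA g
    obtain ⟨p, hp, hp0, rfl⟩ := D.mem_gSet.1 hA
    set x := ((g.1.1 : Matrix.SpecialLinearGroup (Fin n) F) : Matrix (Fin n) (Fin n) F) *ᵥ p
    have hx : hermForm n F q x x = 0 := (H3.mem_SU_iff.1 g.1.2 p p).trans hp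
    have hx0 : x ≠ 0 := by
      intro e
      obtain ⟨v, hv⟩ := H3.exists_hermForm_eq_one D.hF hp0
      rw [← H3.mem_SU_iff.1 g.1.2, show ((g.1.1 : Matrix.SpecialLinearGroup (Fin n) F) :
        Matrix (Fin n) (Fin n) F) *ᵥ p = x from rfl, e, H3.hermForm_zero_right D.hF] at hv
      exact zero_ne_one hv
    refine D.mem_gSet.2 ⟨x, hx, hx0, ?_⟩
    have key : ∀ a, g * D.gFam hp0 hp a * g⁻¹ = D.gFam hx0 hx a := fun a =>
      Subtype.ext (D.conj_uFam g.1 hp hx a)
    ext y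
    rw [Subgroup.mem_map, D.mem_gGroup hx0 hx]
    constructor
    · rintro ⟨z, hz, rfl⟩
      obtain ⟨a, rfl⟩ := (D.mem_gGroup hp0 hp).1 hz
      exact ⟨a, (key a).symm⟩
    · rintro ⟨a, rfl⟩
      exact ⟨_, (D.mem_gGroup hp0 hp).2 ⟨a, rfl⟩, key a⟩
  pair := by
    intro A hA B hB
    obtain ⟨p, hp, hp0, rfl⟩ := D.mem_gSet.1 hA
    obtain ⟨r, hr, hr0, rfl⟩ := D.mem_gSet.1 hB
    by_cases h : hermForm n F q p r = 0
    · exact Or.inl (H92.commutator_eq_bot_of_commute (D.gGroup_commute hp0 hp hr0 hr h))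
    · exact Or.inr (Or.inl (D.gGroup_pair hp0 hp hr0 hr h).1)

theorem gSet_main (hn : 2 ≤ n) :
    IsRootSubgroupClass (D.gSet n) ∧ IsDegenerateRootSet (D.gSet n) ∧
      IsKRootSubgroupSet L (D.gSet n) ∧
      IsConnectedFamily (FAdj (D.gSet n)) (D.gSet n) := by
  refine ⟨⟨D.gSet_isRootSubgroupSet, ?_, fun A hA B hB =>
    conj_of_reach D.gSet_isRootSubgroupSet.ne_bot (D.gSet_connected A hA B hB)⟩, ?_,
    ⟨D.gSet_isRootSubgroupSet, ?_⟩, D.gSet_connected⟩
  · obtain ⟨p, hp0, hp⟩ := H3.exists_isotropic D.hF hn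
    exact ⟨_, D.mem_gSet.2 ⟨p, hp, hp0, rfl⟩⟩
  · intro A hA B hB hcase
    obtain ⟨p, hp, hp0, rfl⟩ := D.mem_gSet.1 hA
    obtain ⟨r, hr, hr0, rfl⟩ := D.mem_gSet.1 hB
    obtain ⟨hC, hc, -, -⟩ := hcase
    by_cases h : hermForm n F q p r = 0
    · exact D.gSet_isRootSubgroupSet.ne_bot _ hC
        (H92.commutator_eq_bot_of_commute (D.gGroup_commute hp0 hp hr0 hr h))
    · obtain ⟨s, hs, hs0, e⟩ := D.mem_gSet.1 hC
      rw [e] at hc
      refine D.gGroup_not_central hp0 hp hr0 hr h hs0 hs ?_ hc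
      rw [← e, Subgroup.commutator_le]
      intro a ha b hb
      rw [commutatorElement_def]
      exact mul_mem (mul_mem (mul_mem (Subgroup.mem_sup_left ha) (Subgroup.mem_sup_right hb))
        (inv_mem (Subgroup.mem_sup_left ha))) (inv_mem (Subgroup.mem_sup_right hb))
  · intro A hA B hB hpr
    obtain ⟨p, hp, hp0, rfl⟩ := D.mem_gSet.1 hA
    obtain ⟨r, hr, hr0, rfl⟩ := D.mem_gSet.1 hB
    by_cases h : hermForm n F q p r = 0
    · exact absurd hpr (not_rankOnePair_of_commute (D.gGroup_ne_bot hp0 hp)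
        (D.gGroup_commute hp0 hp hr0 hr h))
    · exact (D.gGroup_pair hp0 hp hr0 hr h).2

/-- The set in the statement. -/
theorem closure_unitary_set (p : Fin n → F) (hp0 : p ≠ 0) (hp : hermForm n F q p p = 0) :
    Subgroup.closure {g : SU n F q |
      (∀ v : Fin n → F, ∃ c : F,
        ((g : Matrix.SpecialLinearGroup (Fin n) F) : Matrix (Fin n) (Fin n) F) *ᵥ v = v + c • p) ∧
      ∀ v : Fin n → F, hermForm n F q v p = 0 →
        ((g : Matrix.SpecialLinearGroup (Fin n) F) : Matrix (Fin n) (Fin n) F) *ᵥ v = v} =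
      D.uGroup p hp := by
  rw [show {g : SU n F q | _} = (D.uGroup p hp : Set (SU n F q)) from ?_, Subgroup.closure_eq]
  ext g
  constructor
  · rintro ⟨h1, h2⟩
    obtain ⟨x, hx⟩ := H3.exists_hermForm_eq_one D.hF hp0
    obtain ⟨c, hc⟩ := h1 x
    have key : ∀ v, ((g : Matrix.SpecialLinearGroup (Fin n) F) : Matrix (Fin n) (Fin n) F) *ᵥ v =
        v + (c * hermForm n F q v p) • p := by
      intro v
      have h3 := h2 (v + (-hermForm n F q v p) • x)
        (by rw [H3.hermForm_add_left D.hF, H3.hermForm_smul_left D.hF, hx, mul_one, add_neg_cancel])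
      rw [mulVec_add, mulVec_smul, hc] at h3
      linear_combination (norm := module) h3
    have hc0 : c + c ^ q = 0 := H3.trace_zero_of_transvection_preserves D.hF hp0 hp fun u v => by
      rw [H3.unitaryTransvection_mulVec, H3.unitaryTransvection_mulVec, ← key, ← key]
      exact H3.mem_SU_iff.1 g.2 u v
    obtain ⟨a, ha⟩ := D.exists_coef hc0
    exact ⟨a, su_ext fun v => by rw [uFam_mulVec, key, ha]⟩
  · rintro ⟨a, rfl⟩
    exact ⟨fun v => ⟨_, D.uFam_mulVec p v hp a⟩, fun v hv => by simp [uFam_mulVec, hv]⟩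

end Cfsg.Agent.H2.UData

namespace Cfsg.Agent.H2

/-- The data exist, with a parameter field in universe zero. -/
theorem exists_uData {F : Type*} [Field F] [Fintype F] {q : ℕ} (hF : Fintype.card F = q ^ 2) :
    ∃ (L : Type) (_ : Field L) (_ : Fintype L), Fintype.card L = q ∧ Nonempty (UData F q L) := by
  let K : Subfield F := RingHom.eqLocusField (H3.conjQ hF) (RingHom.id F)
  have hK : ∀ x, x ∈ K ↔ x ^ q = x := fun x => Iff.rfl
  have hcard : Nat.card K = q := H3.card_fixed hF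
  let e : Fin q ≃ K := (Finite.equivFinOfCardEq hcard).symm
  letI : Field (Fin q) := e.field
  obtain ⟨δ, hδ0, hδ⟩ := H3.exists_trace_zero_ne_zero hF
  refine ⟨Fin q, inferInstance, inferInstance, Fintype.card_fin q,
    ⟨⟨hF, K.subtype.comp e.ringEquiv.toRingHom, fun x => ⟨fun hx => ⟨e.symm ⟨x, (hK x).2 hx⟩, ?_⟩,
      ?_⟩, δ, hδ0, hδ⟩⟩⟩
  · simp
  · rintro ⟨a, rfl⟩
    exact (hK _).1 (e a).2

end Cfsg.Agent.H2
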