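import Cfsg.Agent.H3.Isotropic
import Cfsg.Agent.H2.Root.SLTransvRoot

/-! Unitary transvection groups parametrised by the fixed field, and SL₂ on a hyperbolic plane. -/

set_option autoImplicit false

namespace Cfsg.Agent.H2

open Cfsg Matrix
open scoped MatrixGroups

variable {F : Type*} [Field F] [Fintype F] {q n : ℕ} {L : Type} [Field L]

/-- A parametrisation of the fixed field and of the trace-zero line. -/
structure UData (F : Type*) [Field F] [Fintype F] (q : ℕ) (L : Type) [Field L] where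
  hF : Fintype.card F = q ^ 2
  incl : L →+* F
  hincl : ∀ x : F, x ^ q = x ↔ ∃ a, incl a = x
  δ : F
  δ_ne : δ ≠ 0
  hδ : δ + δ ^ q = 0

namespace UData

variable (D : UData F q L)

lemma incl_pow (a : L) : D.incl a ^ q = D.incl a := (D.hincl _).2 ⟨a, rfl⟩

lemma coef_trace (a : L) : D.δ * D.incl a + (D.δ * D.incl a) ^ q = 0 := by
  rw [mul_pow, D.incl_pow]
  linear_combination D.incl a * D.hδ

lemma δ_pow : D.δ ^ q = -D.δ := by linear_combination D.hδ

lemma exists_coef {c : F} (hc : c + c ^ q = 0) : ∃ a, D.δ * D.incl a = c := by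
  obtain ⟨a, ha⟩ := (D.hincl (c / D.δ)).1 (by
    rw [div_pow, D.δ_pow, show c ^ q = -c by linear_combination hc, neg_div_neg_eq])
  exact ⟨a, by rw [ha, mul_div_cancel₀ _ D.δ_ne]⟩

/-- The one-parameter family with isotropic centre `p`. -/
def uFam (p : Fin n → F) (hp : hermForm n F q p p = 0) (a : L) : SU n F q :=
  H3.suTrans D.hF p (D.δ * D.incl a) hp (D.coef_trace a)

lemma uFam_mulVec (p v : Fin n → F) (hp : hermForm n F q p p = 0) (a : L) :
    (((D.uFam p hp a : SU n F q) : Matrix.SpecialLinearGroup (Fin n) F) :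
      Matrix (Fin n) (Fin n) F) *ᵥ v = v + (D.δ * D.incl a * hermForm n F q v p) • p :=
  H3.unitaryTransvection_mulVec p v _

lemma su_ext {g g' : SU n F q}
    (e : ∀ v, ((g : Matrix.SpecialLinearGroup (Fin n) F) : Matrix (Fin n) (Fin n) F) *ᵥ v =
      ((g' : Matrix.SpecialLinearGroup (Fin n) F) : Matrix (Fin n) (Fin n) F) *ᵥ v) : g = g' :=
  Subtype.ext (sl_ext_mulVec e)

lemma su_mul_mulVec (g g' : SU n F q) (v : Fin n → F) :
    (((g * g' : SU n F q) : Matrix.SpecialLinearGroup (Fin n) F) : Matrix (Fin n) (Fin n) F) *ᵥ v =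
      ((g : Matrix.SpecialLinearGroup (Fin n) F) : Matrix (Fin n) (Fin n) F) *ᵥ
        (((g' : Matrix.SpecialLinearGroup (Fin n) F) : Matrix (Fin n) (Fin n) F) *ᵥ v) := by
  rw [Subgroup.coe_mul, Matrix.SpecialLinearGroup.coe_mul, mulVec_mulVec]

lemma uFam_add (p : Fin n → F) (hp : hermForm n F q p p = 0) (s t : L) :
    D.uFam p hp (s + t) = D.uFam p hp s * D.uFam p hp t := by
  apply su_ext
  intro v
  rw [su_mul_mulVec]
  simp only [uFam_mulVec, H3.hermForm_add_left D.hF, H3.hermForm_smul_left D.hF, hp, map_add]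
  module

lemma uFam_ne_one {p : Fin n → F} (hp : hermForm n F q p p = 0) (hp0 : p ≠ 0) {a : L}
    (ha : a ≠ 0) : D.uFam p hp a ≠ 1 := by
  intro e
  obtain ⟨x, hx⟩ := H3.exists_hermForm_eq_one D.hF hp0
  have h := D.uFam_mulVec p x hp a
  rw [e, OneMemClass.coe_one, Matrix.SpecialLinearGroup.coe_one, one_mulVec, left_eq_add, hx,
    mul_one, smul_eq_zero, mul_eq_zero] at h
  simp [D.δ_ne, hp0, ha] at h

/-- The transvection group with isotropic centre `p`. -/
def uGroup (p : Fin n → F) (hp : hermForm n F q p p = 0) : Subgroup (SU n F q) :=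
  paramGroup (D.uFam p hp) (D.uFam_add p hp)

lemma mem_uGroup {p : Fin n → F} {hp : hermForm n F q p p = 0} {g : SU n F q} :
    g ∈ D.uGroup p hp ↔ ∃ a, D.uFam p hp a = g := Iff.rfl

lemma uGroup_smul {p : Fin n → F} (hp : hermForm n F q p p = 0) {c : F} (hc : c ≠ 0)
    (hp' : hermForm n F q (c • p) (c • p) = 0) : D.uGroup (c • p) hp' = D.uGroup p hp := by
  obtain ⟨N, hN⟩ := (D.hincl (c ^ q * c)).1 (by rw [mul_pow, H3.pow_q_pow_q D.hF, mul_comm])
  have hN0 : N ≠ 0 := fun e => by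
    rw [e, map_zero] at hN
    exact mul_ne_zero (pow_ne_zero q hc) hc hN.symm
  have e : ∀ a, D.uFam (c • p) hp' a = D.uFam p hp (a * N) := fun a => by
    apply su_ext
    intro v
    simp only [uFam_mulVec, H3.hermForm_smul_right D.hF, smul_smul, map_mul, hN]
    congr 2
    ring
  ext g
  simp only [mem_uGroup, e]
  refine ⟨fun ⟨a, ha⟩ => ⟨_, ha⟩, fun ⟨a, ha⟩ => ⟨a / N, ?_⟩⟩
  rwa [div_mul_cancel₀ _ hN0]

lemma uFam_commute {p r : Fin n → F} (hp : hermForm n F q p p = 0)
    (hr : hermForm n F q r r = 0) (h : hermForm n F q p r = 0) (s t : L) :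
    D.uFam p hp s * D.uFam r hr t = D.uFam r hr t * D.uFam p hp s := by
  have h' : hermForm n F q r p = 0 := (H3.hermForm_eq_zero_comm D.hF).1 h
  apply su_ext
  intro v
  simp only [su_mul_mulVec, uFam_mulVec, H3.hermForm_add_left D.hF, H3.hermForm_smul_left D.hF,
    h, h', mul_zero, add_zero]
  module

lemma conj_uFam (g : SU n F q) {p : Fin n → F} (hp : hermForm n F q p p = 0)
    (hgp : hermForm n F q (((g : Matrix.SpecialLinearGroup (Fin n) F) : Matrix _ _ F) *ᵥ p)
      (((g : Matrix.SpecialLinearGroup (Fin n) F) : Matrix _ _ F) *ᵥ p) = 0) (a : L) :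
    g * D.uFam p hp a * g⁻¹ =
      D.uFam (((g : Matrix.SpecialLinearGroup (Fin n) F) : Matrix _ _ F) *ᵥ p) hgp a := by
  rw [mul_inv_eq_iff_eq_mul]
  apply su_ext
  intro v
  simp only [su_mul_mulVec, uFam_mulVec, mulVec_add, mulVec_smul, H3.mem_SU_iff.1 g.2]

/-- Conjugate-linear coordinates. -/
def bar (q : ℕ) (p : Fin n → F) : Fin n → F := fun j => p j ^ q

omit [Fintype F] in
lemma bar_dot (p v : Fin n → F) : bar q p ⬝ᵥ v = hermForm n F q v p := by
  simp [bar, dotProduct, hermForm, mul_comm]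

variable {p r : Fin n → F} (hp : hermForm n F q p p = 0) (hr : hermForm n F q r r = 0)
  (hrp : hermForm n F q r p = D.δ⁻¹)

include hrp in
lemma hermForm_pr : hermForm n F q p r = -D.δ⁻¹ := by
  rw [← H3.hermForm_pow_q D.hF, hrp, inv_pow, D.δ_pow, inv_neg]

/-- SL₂ over the fixed field acting on a hyperbolic plane, inside SL. -/
def planeSU : SL(2, L) →* Matrix.SpecialLinearGroup (Fin n) F :=
  (planeSLHom (v := p) (w := r) (φ := D.δ • bar q p) (ψ := (-D.δ) • bar q r)
    (by rw [smul_dotProduct, bar_dot, hp, smul_zero])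
    (by rw [smul_dotProduct, bar_dot, hr, smul_zero])
    (by rw [smul_dotProduct, bar_dot, hrp, smul_eq_mul, mul_inv_cancel₀ D.δ_ne])
    (by rw [smul_dotProduct, bar_dot, D.hermForm_pr hrp, smul_eq_mul, neg_mul_neg,
      mul_inv_cancel₀ D.δ_ne])).comp (Matrix.SpecialLinearGroup.map D.incl)

lemma planeSU_injective : Function.Injective (D.planeSU hp hr hrp) := by
  rw [planeSU, MonoidHom.coe_comp]
  refine (planeSLHom_injective _ _ _ _).comp ?_
  intro M N e
  apply H92.sl2_ext <;> apply D.incl.injective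
  · exact congrArg (fun x : SL(2, F) => x 0 0) e
  · exact congrArg (fun x : SL(2, F) => x 0 1) e
  · exact congrArg (fun x : SL(2, F) => x 1 0) e
  · exact congrArg (fun x : SL(2, F) => x 1 1) e

lemma map_sx (t : L) : Matrix.SpecialLinearGroup.map D.incl (H92.sx t) = H92.sx (D.incl t) := by
  apply H92.sl2_ext <;> simp

lemma map_sy (t : L) : Matrix.SpecialLinearGroup.map D.incl (H92.sy t) = H92.sy (D.incl t) := by
  apply H92.sl2_ext <;> simp

lemma planeSU_sx (t : L) :
    D.planeSU hp hr hrp (H92.sx t) =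
      ((D.uFam p hp t : SU n F q) : Matrix.SpecialLinearGroup (Fin n) F) := by
  apply sl_ext_mulVec
  intro v
  rw [planeSU, MonoidHom.comp_apply, map_sx, uFam_mulVec]
  show planeMat _ _ _ _ _ *ᵥ v = _
  rw [planeMat_sx (by rw [smul_dotProduct, bar_dot, hp, smul_zero]), tvFam_mulVec, smul_dotProduct,
    bar_dot, smul_eq_mul]
  congr 2
  ring

lemma planeSU_sy (t : L) :
    D.planeSU hp hr hrp (H92.sy t) =
      ((D.uFam r hr t : SU n F q) : Matrix.SpecialLinearGroup (Fin n) F) := by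
  apply sl_ext_mulVec
  intro v
  rw [planeSU, MonoidHom.comp_apply, map_sy, uFam_mulVec]
  show planeMat _ _ _ _ _ *ᵥ v = _
  rw [planeMat_sy (by rw [smul_dotProduct, bar_dot, hr, smul_zero]), tvFam_mulVec, smul_dotProduct,
    bar_dot, smul_eq_mul]
  congr 2
  ring

lemma planeSU_mem {H : Subgroup (SU n F q)} (h1 : D.uGroup p hp ≤ H) (h2 : D.uGroup r hr ≤ H)
    (M : SL(2, L)) :
    D.planeSU hp hr hrp M ∈ H.map (SU n F q).subtype := by
  have : (⊤ : Subgroup SL(2, L)) ≤ (H.map (SU n F q).subtype).comap (D.planeSU hp hr hrp) := by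
    rw [← H92.sl2_closure_sx_sy, Subgroup.closure_le]
    rintro _ (⟨t, rfl⟩ | ⟨t, rfl⟩)
    · exact ⟨D.uFam p hp t, h1 ⟨t, rfl⟩, (D.planeSU_sx hp hr hrp t).symm⟩
    · exact ⟨D.uFam r hr t, h2 ⟨t, rfl⟩, (D.planeSU_sy hp hr hrp t).symm⟩
  exact this (Subgroup.mem_top M)

end UData

end Cfsg.Agent.H2
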