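import Cfsg.Agent.H2.Root.Transfer
import Cfsg.Prelude.Def_Classical

/-! Siegel transvection groups of a quadratic form: elements, SL₂ pairs, commutators. -/

set_option autoImplicit false

namespace Cfsg.Agent.H2

open Cfsg Matrix
open scoped MatrixGroups

variable {ι : Type} [Fintype ι] [DecidableEq ι] {F : Type*} [Field F]

/-- A non-degenerate quadratic form with its polar form. -/
structure QData (ι : Type) (F : Type*) [Field F] where
  Q : (ι → F) → F
  B : LinearMap.BilinForm F (ι → F)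
  hadd : ∀ u v, Q (u + v) = Q u + Q v + B u v
  hsmul : ∀ (c : F) u, Q (c • u) = c ^ 2 * Q u
  hsep : ∀ u, (∀ v, B u v = 0) → u = 0

namespace QData

variable (D : QData ι F)

omit [Fintype ι] [DecidableEq ι] in
lemma B_comm (u v : ι → F) : D.B u v = D.B v u := by
  have h1 := D.hadd u v
  have h2 := D.hadd v u
  rw [add_comm v u] at h2
  linear_combination h2 - h1

omit [Fintype ι] [DecidableEq ι] in
lemma B_self {u : ι → F} (h : D.Q u = 0) : D.B u u = 0 := by
  have h1 := D.hadd u u
  have h2 := D.hsmul 2 u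
  rw [two_smul] at h2
  linear_combination h2 - h1 + 2 * h

omit [Fintype ι] [DecidableEq ι] in
lemma Q_comb (p r : ι → F) (a b : F) :
    D.Q (a • p + b • r) = a ^ 2 * D.Q p + b ^ 2 * D.Q r + a * b * D.B p r := by
  rw [D.hadd, D.hsmul, D.hsmul]
  simp only [map_smul, LinearMap.smul_apply, smul_eq_mul]
  ring

/-- A spanning pair of a totally singular subspace. -/
structure Sing (p r : ι → F) : Prop where
  left : D.Q p = 0
  right : D.Q r = 0
  pair : D.B p r = 0

variable {D}

omit [Fintype ι] [DecidableEq ι] in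
lemma Sing.comb {p r : ι → F} (h : D.Sing p r) (a b c d : F) :
    D.Sing (a • p + b • r) (c • p + d • r) := by
  refine ⟨by simp [D.Q_comb, h.left, h.right, h.pair], by simp [D.Q_comb, h.left, h.right, h.pair], ?_⟩
  simp [D.B_self h.left, D.B_self h.right, h.pair, D.B_comm r p]

/-- The Siegel map `v ↦ v + c (B(v,r) p - B(v,p) r)`. -/
def sLin (D : QData ι F) (p r : ι → F) (c : F) : (ι → F) →ₗ[F] (ι → F) :=
  LinearMap.id + c • ((D.B.flip r).smulRight p - (D.B.flip p).smulRight r)

omit [Fintype ι] [DecidableEq ι] in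
lemma sLin_apply (p r v : ι → F) (c : F) :
    sLin D p r c v = v + c • (D.B v r • p - D.B v p • r) := by
  simp [sLin]

variable {p r : ι → F}

omit [Fintype ι] [DecidableEq ι] in
lemma sLin_add (h : D.Sing p r) (s t : F) (v : ι → F) :
    sLin D p r s (sLin D p r t v) = sLin D p r (s + t) v := by
  simp only [sLin_apply, map_add, map_sub, map_smul, LinearMap.add_apply, LinearMap.sub_apply,
    LinearMap.smul_apply, smul_eq_mul, D.B_self h.left, D.B_self h.right, h.pair, D.B_comm r p,
    mul_zero, add_zero, sub_zero]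
  module

omit [Fintype ι] [DecidableEq ι] in
lemma sLin_Q (h : D.Sing p r) (c : F) (v : ι → F) : D.Q (sLin D p r c v) = D.Q v := by
  have e : c • (D.B v r • p - D.B v p • r) = (c * D.B v r) • p + (-(c * D.B v p)) • r := by module
  rw [sLin_apply, e, D.hadd, D.Q_comb, h.left, h.right, h.pair]
  simp only [map_add, map_smul, smul_eq_mul]
  ring

/-- The Siegel transvection as an element of the isometry group. -/
def sFam (h : D.Sing p r) (c : F) : isometryGroup F D.Q :=
  ⟨⟨LinearMap.toMatrix' (sLin D p r c), LinearMap.toMatrix' (sLin D p r (-c)), by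
      rw [← LinearMap.toMatrix'_comp, ← LinearMap.toMatrix'_id]
      congr 1
      refine LinearMap.ext fun v => ?_
      rw [LinearMap.comp_apply, sLin_add h, add_neg_cancel, sLin_apply, zero_smul, add_zero,
        LinearMap.id_apply],
    by
      rw [← LinearMap.toMatrix'_comp, ← LinearMap.toMatrix'_id]
      congr 1
      refine LinearMap.ext fun v => ?_
      rw [LinearMap.comp_apply, sLin_add h, neg_add_cancel, sLin_apply, zero_smul, add_zero,
        LinearMap.id_apply]⟩,
    fun u _ => by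
      show D.Q (LinearMap.toMatrix' (sLin D p r c) *ᵥ u) = D.Q u
      rw [← Matrix.toLin'_apply, Matrix.toLin'_toMatrix', sLin_Q h]⟩

lemma sFam_mulVec (h : D.Sing p r) (c : F) (v : ι → F) :
    ((sFam h c : GL ι F) : Matrix ι ι F) *ᵥ v = v + c • (D.B v r • p - D.B v p • r) := by
  show LinearMap.toMatrix' (sLin D p r c) *ᵥ v = _
  rw [← Matrix.toLin'_apply, Matrix.toLin'_toMatrix', sLin_apply]

lemma iso_ext {g g' : isometryGroup F D.Q}
    (e : ∀ v, ((g : GL ι F) : Matrix ι ι F) *ᵥ v = ((g' : GL ι F) : Matrix ι ι F) *ᵥ v) : g = g' :=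
  Subtype.ext (Units.ext (Matrix.ext_of_mulVec_single fun i => e _))

lemma iso_mul_mulVec (g g' : isometryGroup F D.Q) (v : ι → F) :
    (((g * g' : isometryGroup F D.Q) : GL ι F) : Matrix ι ι F) *ᵥ v =
      ((g : GL ι F) : Matrix ι ι F) *ᵥ (((g' : GL ι F) : Matrix ι ι F) *ᵥ v) := by
  rw [Subgroup.coe_mul, Units.val_mul, mulVec_mulVec]

lemma iso_B (g : isometryGroup F D.Q) (u v : ι → F) :
    D.B (((g : GL ι F) : Matrix ι ι F) *ᵥ u) (((g : GL ι F) : Matrix ι ι F) *ᵥ v) = D.B u v := by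
  have hg : ∀ w, D.Q (((g : GL ι F) : Matrix ι ι F) *ᵥ w) = D.Q w := fun w => g.2 w w
  have h1 := D.hadd u v
  have h2 := D.hadd (((g : GL ι F) : Matrix ι ι F) *ᵥ u) (((g : GL ι F) : Matrix ι ι F) *ᵥ v)
  rw [← mulVec_add, hg, hg, hg] at h2
  linear_combination h1 - h2

lemma sFam_add (h : D.Sing p r) (s t : F) : sFam h (s + t) = sFam h s * sFam h t := by
  apply iso_ext
  intro v
  rw [iso_mul_mulVec]
  simp only [sFam_mulVec]
  have := sLin_add h s t v
  simp only [sLin_apply] at this
  exact this.symm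

/-- The Siegel transvection group. -/
def sGroup (h : D.Sing p r) : Subgroup (isometryGroup F D.Q) := paramGroup (sFam h) (sFam_add h)

lemma mem_sGroup {h : D.Sing p r} {g : isometryGroup F D.Q} :
    g ∈ sGroup h ↔ ∃ c, sFam h c = g := Iff.rfl

lemma sFam_ne_one (h : D.Sing p r) (hind : LinearIndependent F ![p, r]) {c : F} (hc : c ≠ 0) :
    sFam h c ≠ 1 := by
  intro e
  refine hind.ne_zero 0 (D.hsep _ fun v => ?_)
  have h1 := sFam_mulVec h c v
  rw [e, OneMemClass.coe_one, Units.val_one, one_mulVec, left_eq_add, smul_eq_zero] at h1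
  have h2 : (-D.B v p) • r + D.B v r • p = 0 := by
    rw [← h1.resolve_left hc]; module
  rw [add_comm] at h2
  have := (LinearIndependent.pair_iff.1 hind _ _ h2).2
  simpa [D.B_comm v p] using this

lemma sGroup_basis (h : D.Sing p r) (a b c d : F) (hdet : a * d - b * c ≠ 0) :
    sGroup (h.comb a b c d) = sGroup h := by
  have e : ∀ t, sFam (h.comb a b c d) t = sFam h (t * (a * d - b * c)) := fun t => by
    apply iso_ext
    intro v
    simp only [sFam_mulVec, map_add, map_smul, smul_eq_mul]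
    module
  ext g
  simp only [mem_sGroup, e]
  refine ⟨fun ⟨t, ht⟩ => ⟨_, ht⟩, fun ⟨t, ht⟩ => ⟨t / (a * d - b * c), ?_⟩⟩
  rwa [div_mul_cancel₀ _ hdet]

lemma conjBy_sGroup (g : isometryGroup F D.Q) (h : D.Sing p r)
    (h' : D.Sing (((g : GL ι F) : Matrix ι ι F) *ᵥ p) (((g : GL ι F) : Matrix ι ι F) *ᵥ r)) :
    conjBy (sGroup h) g = sGroup h' := by
  have e : ∀ c, g * sFam h c * g⁻¹ = sFam h' c := fun c => by
    rw [mul_inv_eq_iff_eq_mul]
    apply iso_ext
    intro v
    simp only [iso_mul_mulVec, sFam_mulVec, mulVec_add, mulVec_smul, mulVec_sub, iso_B]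
  ext x
  simp only [Subgroup.mem_map, mem_sGroup]
  constructor
  · rintro ⟨_, ⟨c, rfl⟩, rfl⟩; exact ⟨c, (e c).symm⟩
  · rintro ⟨c, rfl⟩; exact ⟨_, ⟨c, rfl⟩, e c⟩

lemma sFam_commute {p' r' : ι → F} (h : D.Sing p r) (h' : D.Sing p' r') (h1 : D.B p p' = 0)
    (h2 : D.B p r' = 0) (h3 : D.B r p' = 0) (h4 : D.B r r' = 0) (s t : F) :
    sFam h s * sFam h' t = sFam h' t * sFam h s := by
  apply iso_ext
  intro v
  simp only [iso_mul_mulVec, sFam_mulVec, map_add, map_sub, map_smul, LinearMap.add_apply,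
    LinearMap.sub_apply, LinearMap.smul_apply, smul_eq_mul, D.B_comm p' p, D.B_comm r' p,
    D.B_comm p' r, D.B_comm r' r, h1, h2, h3, h4, mul_zero, sub_zero, add_zero]
  module

/-- Two lines whose pairing has rank one. -/
lemma sFam_comm {a b : ι → F} (h : D.Sing a p) (h' : D.Sing b r) (hz : D.Sing b a)
    (h1 : D.B a b = 0) (h2 : D.B a r = 0) (h3 : D.B p b = 0) (s t : F) :
    sFam h s * sFam h' t * (sFam h s)⁻¹ * (sFam h' t)⁻¹ = sFam hz (D.B p r * (s * t)) := by
  rw [mul_inv_eq_iff_eq_mul, mul_inv_eq_iff_eq_mul]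
  apply iso_ext
  intro v
  simp only [iso_mul_mulVec, sFam_mulVec, map_add, map_sub, map_smul, LinearMap.add_apply,
    LinearMap.sub_apply, LinearMap.smul_apply, smul_eq_mul, D.B_comm b a, D.B_comm r a,
    D.B_comm b p, D.B_comm r p, h1, h2, h3, D.B_self h.left, D.B_self h'.left, h.pair, h'.pair,
    D.B_comm p a, D.B_comm r b, mul_zero, sub_zero, add_zero, zero_sub]
  module

/-- SL₂ on two hyperbolic planes. -/
def sPlane (D : QData ι F) (p r P R : ι → F) (M : Matrix (Fin 2) (Fin 2) F) :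
    (ι → F) →ₗ[F] (ι → F) :=
  LinearMap.id + (D.B.flip P).smulRight ((M 0 0 - 1) • p + M 1 0 • R) +
    (D.B.flip r).smulRight (M 0 1 • p + (M 1 1 - 1) • R) +
    (-D.B.flip R).smulRight ((M 0 0 - 1) • (-r) + M 1 0 • P) +
    (D.B.flip p).smulRight (M 0 1 • (-r) + (M 1 1 - 1) • P)

omit [Fintype ι] [DecidableEq ι] in
lemma sPlane_apply (P R v : ι → F) (M : Matrix (Fin 2) (Fin 2) F) :
    sPlane D p r P R M v = v + D.B v P • ((M 0 0 - 1) • p + M 1 0 • R) +
      D.B v r • (M 0 1 • p + (M 1 1 - 1) • R) +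
      (-D.B v R) • ((M 0 0 - 1) • (-r) + M 1 0 • P) +
      D.B v p • (M 0 1 • (-r) + (M 1 1 - 1) • P) := by
  simp [sPlane]

/-- The dual basis conditions for two opposite lines. -/
structure Dual (p r P R : ι → F) : Prop where
  sing : D.Sing p r
  sing' : D.Sing P R
  pP : D.B p P = 1
  pR : D.B p R = 0
  rP : D.B r P = 0
  rR : D.B r R = 1

variable {P R : ι → F}

omit [Fintype ι] [DecidableEq ι] in
lemma sPlane_mul (h : Dual (D := D) p r P R) (M N : SL(2, F)) (v : ι → F) :
    sPlane D p r P R (M * N : SL(2, F)) v = sPlane D p r P R M (sPlane D p r P R N v) := by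
  simp only [sPlane_apply, map_add, map_sub, map_smul, map_neg, LinearMap.add_apply,
    LinearMap.sub_apply, LinearMap.smul_apply, LinearMap.neg_apply, smul_eq_mul,
    D.B_self h.sing.left, D.B_self h.sing.right, h.sing.pair, D.B_self h.sing'.left,
    D.B_self h.sing'.right, h.sing'.pair, D.B_comm r p, D.B_comm R P, D.B_comm P p, D.B_comm R p,
    D.B_comm P r, D.B_comm R r, h.pP, h.pR, h.rP, h.rR,
    Matrix.SpecialLinearGroup.coe_mul, Matrix.mul_apply, Fin.sum_univ_two]
  module

/-- The SL₂ of two opposite lines, as matrices. -/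
def sPlaneHom (h : Dual (D := D) p r P R) : SL(2, F) →* Matrix ι ι F where
  toFun M := LinearMap.toMatrix' (sPlane D p r P R M)
  map_one' := by
    rw [← LinearMap.toMatrix'_id]
    congr 1
    refine LinearMap.ext fun v => ?_
    simp [sPlane_apply]
  map_mul' M N := by
    rw [← LinearMap.toMatrix'_comp]
    congr 1
    exact LinearMap.ext fun v => sPlane_mul h M N v

lemma sPlaneHom_mulVec (h : Dual (D := D) p r P R) (M : SL(2, F)) (v : ι → F) :
    sPlaneHom h M *ᵥ v = sPlane D p r P R M v := by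
  show LinearMap.toMatrix' _ *ᵥ v = _
  rw [← Matrix.toLin'_apply, Matrix.toLin'_toMatrix']

lemma sPlaneHom_sx (h : Dual (D := D) p r P R) (t : F) :
    (sPlaneHom h).toHomUnits (H92.sx t) = ((sFam h.sing t : isometryGroup F D.Q) : GL ι F) := by
  refine Units.ext (Matrix.ext_of_mulVec_single fun i => ?_)
  rw [MonoidHom.coe_toHomUnits, sPlaneHom_mulVec, sPlane_apply, sFam_mulVec]
  simp only [H92.sx_00, H92.sx_01, H92.sx_10, H92.sx_11, sub_self, zero_smul, add_zero]
  module

lemma sPlaneHom_sy (h : Dual (D := D) p r P R) (t : F) :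
    (sPlaneHom h).toHomUnits (H92.sy t) = ((sFam h.sing' t : isometryGroup F D.Q) : GL ι F) := by
  refine Units.ext (Matrix.ext_of_mulVec_single fun i => ?_)
  rw [MonoidHom.coe_toHomUnits, sPlaneHom_mulVec, sPlane_apply, sFam_mulVec]
  simp only [H92.sy_00, H92.sy_01, H92.sy_10, H92.sy_11, sub_self, zero_smul, zero_add]
  module

lemma sPlaneHom_mem (h : Dual (D := D) p r P R) (M : SL(2, F)) :
    (sPlaneHom h).toHomUnits M ∈ isometryGroup F D.Q := by
  have : (⊤ : Subgroup SL(2, F)) ≤ (isometryGroup F D.Q).comap (sPlaneHom h).toHomUnits := by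
    rw [← H92.sl2_closure_sx_sy, Subgroup.closure_le]
    rintro _ (⟨t, rfl⟩ | ⟨t, rfl⟩)
    · exact Subgroup.mem_comap.2 (by rw [sPlaneHom_sx]; exact (sFam h.sing t).2)
    · exact Subgroup.mem_comap.2 (by rw [sPlaneHom_sy]; exact (sFam h.sing' t).2)
  exact this (Subgroup.mem_top M)

/-- The SL₂ of two opposite lines in the isometry group. -/
def sPlaneIso (h : Dual (D := D) p r P R) : SL(2, F) →* isometryGroup F D.Q :=
  (sPlaneHom h).toHomUnits.codRestrict _ (sPlaneHom_mem h)

lemma sPlaneIso_injective (h : Dual (D := D) p r P R) : Function.Injective (sPlaneIso h) := by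
  rw [← MonoidHom.ker_eq_bot_iff, Subgroup.eq_bot_iff_forall]
  intro M hM
  rw [MonoidHom.mem_ker] at hM
  have e : sPlaneHom h M = 1 :=
    congrArg (fun g : isometryGroup F D.Q => ((g : GL ι F) : Matrix ι ι F)) hM
  have ep := congrArg (· *ᵥ p) e
  have eR := congrArg (· *ᵥ R) e
  simp only [sPlaneHom_mulVec, sPlane_apply, one_mulVec, D.B_self h.sing.left, h.sing.pair, h.pP,
    h.pR, D.B_comm R P, h.sing'.pair, D.B_self h.sing'.right, D.B_comm R r, h.rR, D.B_comm R p,
    neg_zero, zero_smul, add_zero, one_smul] at ep eR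
  have p1 := congrArg (fun x => D.B x P) ep
  have p2 := congrArg (fun x => D.B x r) ep
  have R1 := congrArg (fun x => D.B x P) eR
  have R2 := congrArg (fun x => D.B x r) eR
  simp only [map_add, map_smul, LinearMap.add_apply, LinearMap.smul_apply, smul_eq_mul, h.pP,
    h.sing.pair, D.B_comm R P, h.sing'.pair, D.B_comm R r, h.rR, mul_zero, mul_one, add_zero,
    zero_add] at p1 p2 R1 R2
  apply H92.sl2_ext
  all_goals simp
  all_goals grind

lemma sGroup_pair_dual (h : Dual (D := D) p r P R) {H : Subgroup (isometryGroup F D.Q)}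
    (h1 : sGroup h.sing ≤ H) (h2 : sGroup h.sing' ≤ H) :
    IsRankOnePair ((sGroup h.sing).subgroupOf H) ((sGroup h.sing').subgroupOf H) ∧
      IsPSL2PairOver F ((sGroup h.sing).subgroupOf H) ((sGroup h.sing').subgroupOf H) :=
  pair_subgroupOf_of_sl2Hom (sPlaneIso h) (sPlaneIso_injective h) _ _
    (fun t => Subtype.ext (sPlaneHom_sx h t)) (fun t => Subtype.ext (sPlaneHom_sy h t))
    (fun s => h1 ⟨s, rfl⟩) (fun s => h2 ⟨s, rfl⟩)

lemma sGroup_pair_dual_top (h : Dual (D := D) p r P R) :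
    IsRankOnePair (sGroup h.sing) (sGroup h.sing') := by
  refine (pair_of_sl2Hom (sPlaneIso h) (sPlaneIso_injective h) (fun g => ?_) (fun g => ?_)).1
  · have e : ∀ t, sPlaneIso h (H92.sx t) = sFam h.sing t := fun t => Subtype.ext (sPlaneHom_sx h t)
    simp only [e, mem_sGroup]
  · have e : ∀ t, sPlaneIso h (H92.sy t) = sFam h.sing' t := fun t => Subtype.ext (sPlaneHom_sy h t)
    simp only [e, mem_sGroup]

end QData

end Cfsg.Agent.H2
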