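import Cfsg.Agent.H2.Root.SiegelRoot

/-! Opposition of singular lines is connected; the hyperbolic form. -/

set_option autoImplicit false

namespace Cfsg.Agent.H2.QData

open Cfsg Matrix

variable {ι : Type} [Fintype ι] [DecidableEq ι] {F : Type*} [Field F] {D : QData ι F}

omit [Fintype ι] [DecidableEq ι] in
/-- A singular vector outside a line's orthogonal has a singular partner there. -/
lemma exists_dual {p r : ι → F} (hi : LinearIndependent F ![p, r]) :
    ∃ v, D.B p v = 1 ∧ D.B r v = 0 := by
  by_contra hall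
  push Not at hall
  have hr : r ≠ 0 := hi.ne_zero 1
  obtain ⟨v1, hv1⟩ : ∃ v, D.B r v ≠ 0 := by
    by_contra hh
    push Not at hh
    exact hr (D.hsep r hh)
  set v0 := (D.B r v1)⁻¹ • v1 with hv0
  have h0 : D.B r v0 = 1 := by rw [hv0, map_smul, smul_eq_mul, inv_mul_cancel₀ hv1]
  have key : ∀ v, D.B r v = 0 → D.B p v = 0 := fun v hv => by
    by_contra hne
    exact hall ((D.B p v)⁻¹ • v) (by rw [map_smul, smul_eq_mul, inv_mul_cancel₀ hne])
      (by rw [map_smul, hv, smul_zero])
  have e : (1 : F) • p + (-D.B p v0) • r = 0 := D.hsep _ fun v => by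
    have := key (v - D.B r v • v0) (by rw [map_sub, map_smul, h0, smul_eq_mul, mul_one, sub_self])
    rw [map_sub, map_smul, smul_eq_mul] at this
    simp only [map_add, map_smul, LinearMap.add_apply, LinearMap.smul_apply, smul_eq_mul]
    linear_combination this
  exact one_ne_zero (LinearIndependent.pair_iff.1 hi _ _ e).1

omit [DecidableEq ι] in
/-- A non-zero vector orthogonal to four given ones, in dimension at least five. -/
lemma exists_perp_four (hdim : 4 < Fintype.card ι) (a b c d : ι → F) :
    ∃ w, w ≠ 0 ∧ D.B w a = 0 ∧ D.B w b = 0 ∧ D.B w c = 0 ∧ D.B w d = 0 := by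
  let L : (ι → F) →ₗ[F] (Fin 4 → F) :=
    LinearMap.pi fun i => D.B.flip (![a, b, c, d] i)
  obtain ⟨w, hw, hw0⟩ := (LinearMap.ker L).exists_mem_ne_zero_of_ne_bot
    (LinearMap.ker_ne_bot_of_finrank_lt (by
      rw [Module.finrank_fin_fun, Module.finrank_fintype_fun_eq_card]; exact hdim))
  have e : ∀ i, D.B w (![a, b, c, d] i) = 0 := fun i => by
    simpa [L] using congrFun hw i
  exact ⟨w, hw0, e 0, e 1, e 2, e 3⟩

omit [DecidableEq ι] in
/-- In the complement of a hyperbolic pair, a singular vector off two given orthogonals. -/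
lemma exists_off_two (hdim : 4 < Fintype.card ι) {p P a b : ι → F} (hp : D.Q p = 0)
    (hP : D.Q P = 0) (hpP : D.B p P = 1) (ha : D.Q a = 0) (hb : D.Q b = 0) (hap : D.B a p = 0)
    (haP : D.B a P = 0) (hbp : D.B b p = 0) (hbP : D.B b P = 0) (ha0 : a ≠ 0) (hb0 : b ≠ 0) :
    ∃ R, D.Q R = 0 ∧ D.B p R = 0 ∧ D.B P R = 0 ∧ D.B a R ≠ 0 ∧ D.B b R ≠ 0 := by
  have hPp : D.B P p = 1 := by rw [D.B_comm, hpP]
  have hpp : D.B p p = 0 := D.B_self hp
  have hPP : D.B P P = 0 := D.B_self hP
  by_cases hab : D.B a b = 0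
  · -- singular partners
    have partner : ∀ {a : ι → F}, D.Q a = 0 → a ≠ 0 → D.B a p = 0 → D.B a P = 0 →
        ∃ f, D.Q f = 0 ∧ D.B p f = 0 ∧ D.B P f = 0 ∧ D.B a f = 1 := by
      intro a ha ha0 hap haP
      obtain ⟨v, hv⟩ : ∃ v, D.B a v ≠ 0 := by
        by_contra hh
        push Not at hh
        exact ha0 (D.hsep a hh)
      set u := (D.B a v)⁻¹ • v with hu
      have hau : D.B a u = 1 := by rw [hu, map_smul, smul_eq_mul, inv_mul_cancel₀ hv]
      set u' := u + (-D.B u p) • P + (-D.B u P) • p with hu'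
      have hau' : D.B a u' = 1 := by simp [hu', hau, hap, haP]
      have hpu : D.B p u' = 0 := by simp [hu', hpP, hpp, D.B_comm p u]
      have hPu : D.B P u' = 0 := by simp [hu', hPp, hPP, D.B_comm P u]
      refine ⟨u' + (-D.Q u') • a, ?_, ?_, ?_, ?_⟩
      · rw [D.hadd, D.hsmul, ha, map_smul, smul_eq_mul, D.B_comm u' a, hau']
        ring
      · simp [hpu, D.B_comm p a, hap]
      · simp [hPu, D.B_comm P a, haP]
      · simp [hau', D.B_self ha]
    obtain ⟨f, hf, hfp, hfP, haf⟩ := partner ha ha0 hap haP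
    obtain ⟨g, hg, hgp, hgP, hbg⟩ := partner hb hb0 hbp hbP
    by_cases hbf : D.B b f = 0
    · by_cases hag : D.B a g = 0
      · refine ⟨f + g + (-D.B f g) • a, ?_, ?_, ?_, ?_, ?_⟩
        · rw [D.hadd, D.hsmul, D.hadd, hf, hg, ha]
          simp only [map_add, map_smul, LinearMap.add_apply, smul_eq_mul, D.B_comm f a, D.B_comm g a,
            haf, hag]
          ring
        · simp [hfp, hgp, D.B_comm p a, hap]
        · simp [hfP, hgP, D.B_comm P a, haP]
        · simp [haf, hag, D.B_self ha]
        · simp [hbf, hbg, D.B_comm b a, hab]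
      · exact ⟨g, hg, hgp, hgP, hag, by simp [hbg]⟩
    · exact ⟨f, hf, hfp, hfP, by simp [haf], hbf⟩
  · obtain ⟨w0, hw0, w1, w2, w3, w4⟩ := exists_perp_four (D := D) hdim p P a b
    obtain ⟨v, hv⟩ : ∃ v, D.B w0 v ≠ 0 := by
      by_contra hh
      push Not at hh
      exact hw0 (D.hsep w0 hh)
    set u := v + (-D.B v p) • P + (-D.B v P) • p + (-(D.B v a / D.B a b)) • b +
      (-(D.B v b / D.B a b)) • a with hu
    have hwu : D.B w0 u ≠ 0 := by simpa [hu, w1, w2, w3, w4] using hv
    have hup : D.B u p = 0 := by simp [hu, hPp, hpp, hap, hbp]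
    have huP : D.B u P = 0 := by simp [hu, hpP, hPP, haP, hbP]
    have hua : D.B u a = 0 := by
      simp only [hu, map_add, map_smul, LinearMap.add_apply, LinearMap.smul_apply, smul_eq_mul,
        D.B_comm P a, haP, D.B_comm p a, hap, D.B_comm b a, D.B_self ha, mul_zero, add_zero]
      field_simp; ring
    have hub : D.B u b = 0 := by
      simp only [hu, map_add, map_smul, LinearMap.add_apply, LinearMap.smul_apply, smul_eq_mul,
        D.B_comm P b, hbP, D.B_comm p b, hbp, D.B_self hb, mul_zero, add_zero]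
      field_simp; ring
    obtain ⟨w, hQw, hwp, hwP, hwa, hwb⟩ :
        ∃ w, D.Q w ≠ 0 ∧ D.B w p = 0 ∧ D.B w P = 0 ∧ D.B w a = 0 ∧ D.B w b = 0 := by
      by_cases hq : D.Q w0 = 0
      · by_cases hq' : D.Q u = 0
        · refine ⟨w0 + u, by rw [D.hadd, hq, hq']; simpa using hwu, ?_, ?_, ?_, ?_⟩
          · simp [w1, hup]
          · simp [w2, huP]
          · simp [w3, hua]
          · simp [w4, hub]
        · exact ⟨u, hq', hup, huP, hua, hub⟩
      · exact ⟨w0, hq, w1, w2, w3, w4⟩
    refine ⟨a + (-D.Q w / D.B a b) • b + w, ?_, ?_, ?_, ?_, ?_⟩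
    · rw [D.hadd, D.hadd, D.hsmul, ha, hb]
      simp only [map_add, map_smul, LinearMap.add_apply, LinearMap.smul_apply, smul_eq_mul,
        D.B_comm a w, D.B_comm b w, hwa, hwb]
      field_simp; ring
    · simp [D.B_comm p a, hap, D.B_comm p b, hbp, D.B_comm p w, hwp]
    · simp [D.B_comm P a, haP, D.B_comm P b, hbP, D.B_comm P w, hwP]
    · simp [D.B_self ha, D.B_comm a w, hwa, hab, hQw]
    · simp [D.B_self hb, D.B_comm b w, hwb, D.B_comm b a, hab]

lemma adj_of_det {p r p' r' : ι → F} (h : D.Sing p r) (hi : LinearIndependent F ![p, r])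
    (h' : D.Sing p' r') (hi' : LinearIndependent F ![p', r'])
    (hdet : D.B p p' * D.B r r' - D.B p r' * D.B r p' ≠ 0) :
    FAdj (sSet D) (sGroup h) (sGroup h') := by
  refine ⟨⟨p, r, h, hi, rfl⟩, ⟨p', r', h', hi', rfl⟩, ?_⟩
  set δ := D.B p p' * D.B r r' - D.B p r' * D.B r p' with hδ
  set a := D.B r r' / δ with ha
  set b := -D.B r p' / δ with hb
  set c := -D.B p r' / δ with hc
  set d := D.B p p' / δ with hd'
  have hd : a * d - b * c ≠ 0 := by
    have : a * d - b * c = δ⁻¹ := by rw [ha, hb, hc, hd', hδ]; field_simp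
    rw [this]; exact inv_ne_zero hdet
  rw [← sGroup_basis h' a b c d hd]
  refine sGroup_pair_dual_top ⟨h, h'.comb a b c d, ?_, ?_, ?_, ?_⟩ <;>
  · simp only [map_add, map_smul, smul_eq_mul, ha, hb, hc, hd']
    field_simp
    rw [hδ]
    ring

/-- Two lines through a common point have a common opposite. -/
lemma reach_of_common (hdim : 4 < Fintype.card ι) {p r r' : ι → F} (h : D.Sing p r)
    (hi : LinearIndependent F ![p, r]) (h' : D.Sing p r') (hi' : LinearIndependent F ![p, r']) :
    Relation.ReflTransGen (FAdj (sSet D)) (sGroup h) (sGroup h') := by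
  obtain ⟨v, hv1, hv2⟩ := exists_dual (D := D) hi
  set P := v + (-D.Q v) • p with hP
  have hpP : D.B p P = 1 := by simp [hP, hv1, D.B_self h.left]
  have hrP : D.B r P = 0 := by simp [hP, hv2, D.B_comm r p, h.pair]
  have hQP : D.Q P = 0 := by
    rw [hP, D.hadd, D.hsmul, h.left, map_smul, smul_eq_mul, D.B_comm v p, hv1]
    ring
  set b := r' + (-D.B r' P) • p with hb
  have hbb : D.Q b = 0 := by
    rw [hb, D.hadd, D.hsmul, h.left, h'.right, map_smul, smul_eq_mul, D.B_comm r' p, h'.pair]
    ring
  have hbP : D.B b P = 0 := by simp [hb, hpP]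
  have hbp : D.B b p = 0 := by simp [hb, D.B_comm r' p, h'.pair, D.B_self h.left]
  have hb0 : b ≠ 0 := by
    intro e
    have := (LinearIndependent.pair_iff.1 hi' (-D.B r' P) 1 (by rw [← e, hb]; module)).2
    exact one_ne_zero this
  obtain ⟨R, hR, hpR, hPR, hrR, hbR⟩ := exists_off_two hdim h.left hQP hpP h.right hbb
    (by rw [D.B_comm, h.pair]) hrP hbp hbP (hi.ne_zero 1) hb0
  have hm : D.Sing P R := ⟨hQP, hR, hPR⟩
  have hiPR : LinearIndependent F ![P, R] := by
    rw [LinearIndependent.pair_iff]
    intro s t e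
    have e1 := congrArg (fun x => D.B p x) e
    have e2 := congrArg (fun x => D.B r x) e
    simp [hpP, hpR, hrP] at e1 e2
    exact ⟨e1, e2.resolve_right hrR⟩
  have hr'R : D.B r' R ≠ 0 := by simpa [hb, hpR] using hbR
  refine Relation.ReflTransGen.head (adj_of_det h hi hm hiPR (by simp [hpP, hpR, hrR]))
    (Relation.ReflTransGen.single (adj_of_det hm hiPR h' hi' ?_))
  simp only [D.B_comm P p, D.B_comm R p, D.B_comm R r', hpP, hpR, one_mul, mul_zero, sub_zero]
  exact hr'R

theorem sSet_connected (hdim : 4 < Fintype.card ι) :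
    IsConnectedFamily (FAdj (sSet D)) (sSet D) := by
  rintro _ ⟨p, r, h, hi, rfl⟩ _ ⟨p', r', h', hi', rfl⟩
  -- a basis of the second line whose first vector is orthogonal to `p`
  obtain ⟨b, y, hb, hib, eb, hpb⟩ : ∃ b y : ι → F, ∃ hb : D.Sing b y,
      LinearIndependent F ![b, y] ∧ sGroup hb = sGroup h' ∧ D.B p b = 0 := by
    by_cases h0 : D.B p p' = 0
    · exact ⟨p', r', h', hi', rfl, h0⟩
    · have hd : D.B p r' * 0 - (-D.B p p') * 1 ≠ 0 := by simpa using h0
      refine ⟨_, _, h'.comb (D.B p r') (-D.B p p') 1 0, indep_comb hi' hd,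
        sGroup_basis h' _ _ _ _ hd, ?_⟩
      simp only [map_add, map_smul, smul_eq_mul]
      ring
  rw [← eb]
  by_cases hind : LinearIndependent F ![p, b]
  · have hm : D.Sing p b := ⟨h.left, hb.left, hpb⟩
    have step2 := reach_of_common hdim hm.symm' (LinearIndependent.pair_symm_iff.1 hind) hb hib
    rw [sGroup_swap hm] at step2
    exact (reach_of_common hdim h hi hm hind).trans step2
  · -- a common point
    rw [LinearIndependent.pair_iff] at hind
    push Not at hind
    obtain ⟨u, w, huw, hne⟩ := hind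
    have hw : w ≠ 0 := by
      intro hw
      rw [hw, zero_smul, add_zero, smul_eq_zero] at huw
      exact hne (huw.resolve_right (hi.ne_zero 0)) hw
    have hu : u ≠ 0 := by
      intro hu
      rw [hu, zero_smul, zero_add, smul_eq_zero] at huw
      exact hw (huw.resolve_right (hib.ne_zero 0))
    have e : p = (-w / u) • b + (0 : F) • y := by
      rw [zero_smul, add_zero]
      apply smul_right_injective (ι → F) hu
      show u • p = u • ((-w / u) • b)
      rw [smul_smul, mul_div_cancel₀ _ hu]
      linear_combination (norm := module) huw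
    have hd : (-w / u) * 1 - 0 * 0 ≠ 0 := by simp [hw, hu]
    subst e
    have hy : D.Sing ((-w / u) • b + (0 : F) • y) ((0 : F) • b + (1 : F) • y) := hb.comb _ _ _ _
    rw [← sGroup_basis hb _ _ _ _ hd]
    exact reach_of_common hdim h hi hy (indep_comb hib hd)

/-- The hyperbolic form. -/
def qDataPlus (m : ℕ) (F : Type*) [Field F] : QData (Fin m ⊕ Fin m) F where
  Q := Cfsg.quadFormPlus m F
  B := LinearMap.mk₂ F (fun u v => ∑ i, (u (.inl i) * v (.inr i) + v (.inl i) * u (.inr i)))
    (fun u u' v => by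
      rw [← Finset.sum_add_distrib]
      exact Finset.sum_congr rfl fun i _ => by simp only [Pi.add_apply]; ring)
    (fun c u v => by
      rw [smul_eq_mul, Finset.mul_sum]
      exact Finset.sum_congr rfl fun i _ => by simp only [Pi.smul_apply, smul_eq_mul]; ring)
    (fun u v v' => by
      rw [← Finset.sum_add_distrib]
      exact Finset.sum_congr rfl fun i _ => by simp only [Pi.add_apply]; ring)
    (fun c u v => by
      rw [smul_eq_mul, Finset.mul_sum]
      exact Finset.sum_congr rfl fun i _ => by simp only [Pi.smul_apply, smul_eq_mul]; ring)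
  hadd u v := by
    simp only [Cfsg.quadFormPlus, LinearMap.mk₂_apply, ← Finset.sum_add_distrib]
    exact Finset.sum_congr rfl fun i _ => by simp only [Pi.add_apply]; ring
  hsmul c u := by
    simp only [Cfsg.quadFormPlus, Finset.mul_sum]
    exact Finset.sum_congr rfl fun i _ => by simp only [Pi.smul_apply, smul_eq_mul]; ring
  hsep u h := by
    funext j
    rcases j with i | i
    · simpa [Pi.single_apply] using h (Pi.single (.inr i) 1)
    · simpa [Pi.single_apply] using h (Pi.single (.inl i) 1)

/-- A set of the statement is a transvection group. -/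
theorem closure_siegel_set {p r : ι → F} (hs : D.Sing p r) (hi : LinearIndependent F ![p, r]) :
    Subgroup.closure {σ : isometryGroup F D.Q | ∀ v : ι → F,
      D.Q (v + p) - D.Q v - D.Q p = 0 → D.Q (v + r) - D.Q v - D.Q r = 0 →
        ((σ : GL ι F) : Matrix ι ι F) *ᵥ v = v} = sGroup hs := by
  rw [show {σ : isometryGroup F D.Q | _} = (sGroup hs : Set (isometryGroup F D.Q)) from ?_,
    Subgroup.closure_eq]
  ext g
  simp only [Set.mem_ofPred_eq, D.hadd, add_sub_cancel_left, add_sub_cancel_right,
    show ∀ a b c : F, a + b + c - a - b = c from fun a b c => by ring]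
  constructor
  · intro hg
    obtain ⟨P, hP1, hP2⟩ := exists_dual (D := D) hi
    obtain ⟨R, hR1, hR2⟩ := exists_dual (D := D) (LinearIndependent.pair_symm_iff.1 hi)
    set M : Matrix ι ι F := ((g : GL ι F) : Matrix ι ι F) with hM
    have hPp : D.B P p = 1 := by rw [D.B_comm, hP1]
    have hPr : D.B P r = 0 := by rw [D.B_comm, hP2]
    have hRp : D.B R p = 0 := by rw [D.B_comm, hR2]
    have hRr : D.B R r = 1 := by rw [D.B_comm, hR1]
    set X := M *ᵥ P - P with hX
    set Y := M *ᵥ R - R with hY
    have key : ∀ v, M *ᵥ v = v + D.B v p • X + D.B v r • Y := by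
      intro v
      have h3 := hg (v + (-D.B v p) • P + (-D.B v r) • R)
        (by simp [hPp, hRp]) (by simp [hPr, hRr])
      simp only [mulVec_add, mulVec_smul] at h3
      rw [hX, hY]
      linear_combination (norm := module) h3
    -- both displacements lie in the line
    have inLine : ∀ z : ι → F, (∀ w, D.B w p = 0 → D.B w r = 0 → D.B w z = 0) →
        z = D.B P z • p + D.B R z • r := by
      intro z hz
      rw [← sub_eq_zero]
      refine D.hsep _ fun v => ?_
      have := hz (v + (-D.B v p) • P + (-D.B v r) • R) (by simp [hPp, hRp]) (by simp [hPr, hRr])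
      simp only [map_add, map_smul, LinearMap.add_apply, LinearMap.smul_apply, smul_eq_mul] at this
      simp only [map_sub, map_add, map_smul, LinearMap.sub_apply, LinearMap.add_apply,
        LinearMap.smul_apply, smul_eq_mul]
      rw [D.B_comm p v, D.B_comm r v, D.B_comm z v]
      linear_combination this
    have perp : ∀ u w, D.B w p = 0 → D.B w r = 0 → D.B w (M *ᵥ u - u) = 0 := by
      intro u w h1 h2
      have := iso_B g w u
      rw [hg w h1 h2] at this
      rw [map_sub, this, sub_self]
    have eX := inLine X (perp P)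
    have eY := inLine Y (perp R)
    set α := D.B P X
    set β := D.B R X
    set γ := D.B P Y
    set ε := D.B R Y
    have hQ : ∀ v, D.B v p * (D.B v p * α + D.B v r * γ) +
        D.B v r * (D.B v p * β + D.B v r * ε) = 0 := by
      intro v
      have h3 : D.Q (M *ᵥ v) = D.Q v := g.2 v v
      rw [key, eX, eY, show v + D.B v p • (α • p + β • r) + D.B v r • (γ • p + ε • r) =
        v + ((D.B v p * α + D.B v r * γ) • p + (D.B v p * β + D.B v r * ε) • r) by module,
        D.hadd, D.Q_comb, hs.left, hs.right, hs.pair] at h3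
      simp only [map_add, map_smul, smul_eq_mul] at h3
      linear_combination h3
    have hα : α = 0 := by simpa [hPp, hPr] using hQ P
    have hε : ε = 0 := by simpa [hRp, hRr] using hQ R
    have hγ : γ + β = 0 := by simpa [hPp, hPr, hRp, hRr, hα, hε] using hQ (P + R)
    refine ⟨γ, iso_ext fun v => ?_⟩
    rw [sFam_mulVec, ← hM, key v, eX, eY, hα, hε, show β = -γ by linear_combination hγ]
    module
  · rintro ⟨c, rfl⟩ v h1 h2
    simp [sFam_mulVec, h1, h2]

end Cfsg.Agent.H2.QData
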