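import Cfsg.Agent.H2.Root.Siegel

/-! Siegel transvection groups as abstract root subgroups. -/

set_option autoImplicit false

namespace Cfsg.Agent.H2.QData

open Cfsg Matrix
open scoped MatrixGroups commutatorElement

variable {ι : Type} [Fintype ι] [DecidableEq ι] {F : Type*} [Field F] {D : QData ι F}

/-- All Siegel transvection groups. -/
def sSet (D : QData ι F) : Set (Subgroup (isometryGroup F D.Q)) :=
  {A | ∃ p r : ι → F, ∃ h : D.Sing p r, LinearIndependent F ![p, r] ∧ A = sGroup h}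

/-- The group generated by them. -/
def sGen (D : QData ι F) : Subgroup (isometryGroup F D.Q) := ⨆ A ∈ sSet D, A

lemma sGroup_le_sGen {p r : ι → F} (h : D.Sing p r) (hi : LinearIndependent F ![p, r]) :
    sGroup h ≤ sGen D :=
  le_iSup₂_of_le (sGroup h) ⟨p, r, h, hi, rfl⟩ le_rfl

omit [Fintype ι] [DecidableEq ι] in
lemma indep_comb {p r : ι → F} (hi : LinearIndependent F ![p, r]) {a b c d : F}
    (hdet : a * d - b * c ≠ 0) :
    LinearIndependent F ![a • p + b • r, c • p + d • r] := by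
  rw [LinearIndependent.pair_iff]
  intro s t e
  obtain ⟨e1, e2⟩ := LinearIndependent.pair_iff.1 hi (s * a + t * c) (s * b + t * d)
    (by rw [← e]; module)
  constructor
  · exact (mul_eq_zero.1 (show s * (a * d - b * c) = 0 by linear_combination d * e1 - c * e2)).resolve_right hdet
  · exact (mul_eq_zero.1 (show t * (a * d - b * c) = 0 by linear_combination a * e2 - b * e1)).resolve_right hdet

omit [Fintype ι] [DecidableEq ι] in
lemma Sing.symm' {p r : ι → F} (h : D.Sing p r) : D.Sing r p :=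
  ⟨h.right, h.left, by rw [D.B_comm, h.pair]⟩

lemma sGroup_swap {p r : ι → F} (h : D.Sing p r) : sGroup h.symm' = sGroup h := by
  rw [← sGroup_basis h 0 1 1 0 (by simp)]
  congr 1 <;> simp

lemma sGroup_congr {p r p' r' : ι → F} (h : D.Sing p r) (h' : D.Sing p' r') (hp : p = p')
    (hr : r = r') : sGroup h = sGroup h' := by
  subst hp hr; rfl

/-- A basis of the first line adapted to a degenerate pairing. -/
lemma exists_adapted {p r p' r' : ι → F} (hi : LinearIndependent F ![p, r]) (h : D.Sing p r)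
    (hdet : D.B p p' * D.B r r' - D.B p r' * D.B r p' = 0) :
    ∃ a x : ι → F, ∃ h' : D.Sing a x, LinearIndependent F ![a, x] ∧ sGroup h' = sGroup h ∧
      D.B a p' = 0 ∧ D.B a r' = 0 := by
  by_cases h1 : D.B r r' = 0 ∧ D.B r p' = 0
  · exact ⟨r, p, h.symm', LinearIndependent.pair_symm_iff.1 hi, sGroup_swap h, h1.2, h1.1⟩
  by_cases h2 : D.B r p' = 0
  · have h3 : D.B r r' ≠ 0 := fun e => h1 ⟨e, h2⟩
    have hd : D.B r r' * 1 - (-D.B p r') * 0 ≠ 0 := by simpa using h3
    refine ⟨_, _, h.comb (D.B r r') (-D.B p r') 0 1, indep_comb hi hd, sGroup_basis h _ _ _ _ hd, ?_, ?_⟩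
    · simp only [map_add, map_smul, LinearMap.add_apply, LinearMap.smul_apply, smul_eq_mul, h2]
      rw [h2, mul_zero, sub_zero] at hdet
      linear_combination hdet
    · simp only [map_add, map_smul, LinearMap.add_apply, LinearMap.smul_apply, smul_eq_mul]
      ring
  · have hd : D.B r p' * 1 - (-D.B p p') * 0 ≠ 0 := by simpa using h2
    refine ⟨_, _, h.comb (D.B r p') (-D.B p p') 0 1, indep_comb hi hd, sGroup_basis h _ _ _ _ hd, ?_, ?_⟩
    · simp only [map_add, map_smul, LinearMap.add_apply, LinearMap.smul_apply, smul_eq_mul]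
      ring
    · simp only [map_add, map_smul, LinearMap.add_apply, LinearMap.smul_apply, smul_eq_mul]
      linear_combination -hdet

/-- The three possibilities for two lines. -/
lemma sGroup_cases {p r p' r' : ι → F} (h : D.Sing p r) (hi : LinearIndependent F ![p, r])
    (h' : D.Sing p' r') (hi' : LinearIndependent F ![p', r']) :
    (∀ a ∈ sGroup h, ∀ b ∈ sGroup h', a * b = b * a) ∨
    (∃ (P R : ι → F) (hd : Dual (D := D) p r P R), LinearIndependent F ![P, R] ∧
      sGroup h' = sGroup hd.sing') ∨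
    (∃ (a b x y : ι → F) (ha : D.Sing a x) (hb : D.Sing b y) (hz : D.Sing b a),
      LinearIndependent F ![b, a] ∧ D.B x y ≠ 0 ∧ D.B a b = 0 ∧ D.B a y = 0 ∧ D.B x b = 0 ∧
      sGroup h = sGroup ha ∧ sGroup h' = sGroup hb) := by
  by_cases hdet : D.B p p' * D.B r r' - D.B p r' * D.B r p' = 0
  · obtain ⟨a, x, ha, -, ea, a1, a2⟩ := exists_adapted hi h hdet
    obtain ⟨b, y, hb, -, eb, b1, b2⟩ := exists_adapted (p' := a) (r' := x) hi' h'
      (by simp [D.B_comm p' a, D.B_comm r' a, a1, a2])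
    have hab : D.B a b = 0 := by rw [D.B_comm, b1]
    have hxb : D.B x b = 0 := by rw [D.B_comm, b2]
    -- `a` is orthogonal to the whole second line
    have hay : D.B a y = 0 := by
      have hm : sFam hb 1 ∈ sGroup h' := eb ▸ ⟨1, rfl⟩
      obtain ⟨c, hc⟩ := hm
      have e := congrArg (fun g : isometryGroup F D.Q => ((g : GL ι F) : Matrix ι ι F) *ᵥ a) hc
      simp only [sFam_mulVec, a1, a2, hab, zero_smul, sub_zero, smul_zero, add_zero] at e
      by_contra hne
      have this : D.B a y = 0 ∨ b = 0 := by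
        rw [← smul_eq_zero]
        linear_combination (norm := module) -e
      have hb0 : b ≠ 0 := by
        intro hb0
        have h2 : sFam hb 1 = 1 := iso_ext fun v => by simp [sFam_mulVec, hb0]
        rw [h2] at hc
        have : sGroup h' = ⊥ := by
          rw [← eb, eq_bot_iff]
          rintro _ ⟨t, rfl⟩
          exact Subgroup.mem_bot.2 (iso_ext fun v => by simp [sFam_mulVec, hb0])
        exact sFam_ne_one h' hi' one_ne_zero
          (Subgroup.mem_bot.1 (this ▸ ⟨1, rfl⟩ : sFam h' 1 ∈ (⊥ : Subgroup _)))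
      exact this.elim hne hb0
    by_cases hk : D.B x y = 0
    · refine Or.inl ?_
      rw [← ea, ← eb]
      rintro _ ⟨s, rfl⟩ _ ⟨t, rfl⟩
      exact sFam_commute ha hb hab hay hxb hk s t
    have hz : D.Sing b a := ⟨hb.left, ha.left, b1⟩
    by_cases hind : LinearIndependent F ![b, a]
    · exact Or.inr (Or.inr ⟨a, b, x, y, ha, hb, hz, hind, hk, hab, hay, hxb, ea.symm, eb.symm⟩)
    · refine Or.inl ?_
      rw [← ea, ← eb]
      rintro _ ⟨s, rfl⟩ _ ⟨t, rfl⟩
      have e1 := sFam_comm ha hb hz hab hay hxb s t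
      have e2 : sFam hz (D.B x y * (s * t)) = 1 := by
        rw [LinearIndependent.pair_iff] at hind
        push Not at hind
        obtain ⟨u, v, huv, hne⟩ := hind
        apply iso_ext
        intro w
        rw [sFam_mulVec, OneMemClass.coe_one, Units.val_one, one_mulVec, add_eq_left]
        refine smul_eq_zero_of_right _ ?_
        by_cases hu : u = 0
        · have hv : v ≠ 0 := hne hu
          rw [hu, zero_smul, zero_add, smul_eq_zero] at huv
          simp [huv.resolve_left hv]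
        · have : b = (-v / u) • a := by
            apply smul_right_injective (ι → F) hu
            show u • b = u • ((-v / u) • a)
            rw [smul_smul, mul_div_cancel₀ _ hu]
            linear_combination (norm := module) huv
          rw [this, map_smul, smul_eq_mul]
          module
      rw [e2, mul_inv_eq_one, mul_inv_eq_iff_eq_mul] at e1
      exact e1
  · set δ := D.B p p' * D.B r r' - D.B p r' * D.B r p' with hδ
    refine Or.inr (Or.inl ?_)
    set a := D.B r r' / δ
    set b := -D.B r p' / δ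
    set c := -D.B p r' / δ
    set d := D.B p p' / δ
    have hd : a * d - b * c ≠ 0 := by
      have : a * d - b * c = δ⁻¹ := by simp only [a, b, c, d, hδ]; field_simp
      rw [this]; exact inv_ne_zero hdet
    refine ⟨_, _, ⟨h, h'.comb a b c d, ?_, ?_, ?_, ?_⟩, indep_comb hi' hd,
      (sGroup_basis h' _ _ _ _ hd).symm⟩ <;>
    · simp only [map_add, map_smul, smul_eq_mul, a, b, c, d]
      field_simp
      rw [hδ]
      ring

/-- The root subgroup structure inside the generated group. -/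
theorem sSet_kRoot : IsKRootSubgroupSet F
    ((fun A : Subgroup (isometryGroup F D.Q) => A.subgroupOf (⨆ B ∈ sSet D, B)) '' sSet D) := by
  have hne : ∀ {p r : ι → F} (h : D.Sing p r) (hi : LinearIndependent F ![p, r]),
      (sGroup h).subgroupOf (⨆ B ∈ sSet D, B) ≠ ⊥ := fun h hi e => by
    have hm : (⟨sFam h 1, sGroup_le_sGen h hi ⟨1, rfl⟩⟩ : ↥(⨆ B ∈ sSet D, B)) ∈
        (sGroup h).subgroupOf (⨆ B ∈ sSet D, B) := ⟨1, rfl⟩
    rw [e, Subgroup.mem_bot] at hm
    exact sFam_ne_one h hi one_ne_zero (congrArg Subtype.val hm)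
  have hcase : ∀ {p r p' r' : ι → F} (h : D.Sing p r) (hi : LinearIndependent F ![p, r])
      (h' : D.Sing p' r') (hi' : LinearIndependent F ![p', r']),
      let A := (sGroup h).subgroupOf (⨆ B ∈ sSet D, B)
      let A' := (sGroup h').subgroupOf (⨆ B ∈ sSet D, B)
      (⁅A, A'⁆ = ⊥ ∧ ¬ IsRankOnePair A A') ∨ (IsRankOnePair A A' ∧ IsPSL2PairOver F A A') ∨
        (RootCommutatorCase ((fun A : Subgroup (isometryGroup F D.Q) =>
          A.subgroupOf (⨆ B ∈ sSet D, B)) '' sSet D) A A' ∧ ¬ IsRankOnePair A A') := by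
    intro p r p' r' h hi h' hi' A A'
    rcases sGroup_cases h hi h' hi' with hc | ⟨P, R, hd, hiPR, e⟩ |
      ⟨a, b, x, y, ha, hb, hz, hind, hk, hab, hay, hxb, ea, eb⟩
    · have hc' : ∀ a ∈ A, ∀ b ∈ A', a * b = b * a := fun a ha b hb => Subtype.ext (hc _ ha _ hb)
      exact Or.inl ⟨H92.commutator_eq_bot_of_commute hc',
        not_rankOnePair_of_commute (hne h hi) hc'⟩
    · refine Or.inr (Or.inl ?_)
      show IsRankOnePair ((sGroup h).subgroupOf _) ((sGroup h').subgroupOf _) ∧ _
      simp only [A, A', e]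
      exact sGroup_pair_dual hd (sGroup_le_sGen h hi) (sGroup_le_sGen hd.sing' hiPR)
    · refine Or.inr (Or.inr ?_)
      have l1 : ∀ s, sFam ha s ∈ (⨆ B ∈ sSet D, B) := fun s =>
        sGroup_le_sGen h hi (ea ▸ ⟨s, rfl⟩)
      have l2 : ∀ s, sFam hb s ∈ (⨆ B ∈ sSet D, B) := fun s =>
        sGroup_le_sGen h' hi' (eb ▸ ⟨s, rfl⟩)
      have l3 : ∀ s, sFam hz s ∈ (⨆ B ∈ sSet D, B) := fun s =>
        sGroup_le_sGen hz hind ⟨s, rfl⟩
      have hxy : ∀ s t, subFam (sFam ha) l1 s * subFam (sFam hb) l2 t * (subFam (sFam ha) l1 s)⁻¹ *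
          (subFam (sFam hb) l2 t)⁻¹ = subFam (sFam hz) l3 (D.B x y * (s * t)) := fun s t =>
        Subtype.ext (sFam_comm ha hb hz hab hay hxb s t)
      have hxz : ∀ s t, subFam (sFam ha) l1 s * subFam (sFam hz) l3 t =
          subFam (sFam hz) l3 t * subFam (sFam ha) l1 s := fun s t =>
        Subtype.ext (sFam_commute ha hz hab (D.B_self ha.left) hxb (by rw [D.B_comm, ha.pair]) s t)
      have hyz : ∀ s t, subFam (sFam hb) l2 s * subFam (sFam hz) l3 t =
          subFam (sFam hz) l3 t * subFam (sFam hb) l2 s := fun s t =>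
        Subtype.ext (sFam_commute hb hz (D.B_self hb.left) (by rw [D.B_comm, hab])
          (by rw [D.B_comm, hb.pair]) (by rw [D.B_comm, hay]) s t)
      simp only [A, A', ea, eb]
      unfold sGroup
      rw [paramGroup_subgroupOf _ l1, paramGroup_subgroupOf _ l2]
      refine ⟨paramGroup_commCase _ _ (subFam_add (sFam_add hz) l3) hk hxy hxz hyz ?_,
        paramGroup_not_pair _ _ hk hxy hxz hyz ⟨1, fun e' => sFam_ne_one hz hind one_ne_zero
          (congrArg Subtype.val e')⟩⟩
      exact ⟨sGroup hz, ⟨b, a, hz, hind, rfl⟩, paramGroup_subgroupOf _ l3⟩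
  refine ⟨⟨?_, ?_, iSup_subgroupOf_eq_top _, ?_, ?_⟩, ?_⟩
  · rintro _ ⟨_, ⟨p, r, h, hi, rfl⟩, rfl⟩
    show IsMulCommutative ↥((paramGroup (sFam h) (sFam_add h)).subgroupOf (⨆ B ∈ sSet D, B))
    rw [paramGroup_subgroupOf (H := ⨆ B ∈ sSet D, B) (sFam_add h)
      fun s => sGroup_le_sGen h hi ⟨s, rfl⟩]
    exact paramGroup_comm _ _
  · rintro _ ⟨_, ⟨p, r, h, hi, rfl⟩, rfl⟩
    exact hne h hi
  · rintro _ ⟨_, ⟨p, r, h, hi, rfl⟩, rfl⟩ g
    have hgq : ∀ v, D.Q (((g.1 : GL ι F) : Matrix ι ι F) *ᵥ v) = D.Q v := fun v => g.1.2 v v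
    have h' : D.Sing (((g.1 : GL ι F) : Matrix ι ι F) *ᵥ p) (((g.1 : GL ι F) : Matrix ι ι F) *ᵥ r) :=
      ⟨(hgq p).trans h.left, (hgq r).trans h.right, (iso_B g.1 p r).trans h.pair⟩
    have hi' : LinearIndependent F ![((g.1 : GL ι F) : Matrix ι ι F) *ᵥ p,
        ((g.1 : GL ι F) : Matrix ι ι F) *ᵥ r] := by
      rw [LinearIndependent.pair_iff]
      intro s t e
      rw [← mulVec_smul, ← mulVec_smul, ← mulVec_add] at e
      exact LinearIndependent.pair_iff.1 hi s t
        (Matrix.mulVec_injective_of_isUnit (g.1 : GL ι F).isUnit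
          (e.trans (mulVec_zero _).symm))
    refine ⟨sGroup h', ⟨_, _, h', hi', rfl⟩, ?_⟩
    show (sGroup h').subgroupOf _ = _
    rw [conjBy_subgroupOf, conjBy_sGroup _ h h']
  · rintro _ ⟨_, ⟨p, r, h, hi, rfl⟩, rfl⟩ _ ⟨_, ⟨p', r', h', hi', rfl⟩, rfl⟩
    rcases hcase h hi h' hi' with hc | hc | hc
    · exact Or.inl hc.1
    · exact Or.inr (Or.inl hc.1)
    · exact Or.inr (Or.inr hc.1)
  · rintro _ ⟨_, ⟨p, r, h, hi, rfl⟩, rfl⟩ _ ⟨_, ⟨p', r', h', hi', rfl⟩, rfl⟩ hp
    rcases hcase h hi h' hi' with hc | hc | hc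
    · exact absurd hp hc.2
    · exact hc.2
    · exact absurd hp hc.2

end Cfsg.Agent.H2.QData
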