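import Cfsg.Agent.H2.Root.Param

/-! Moving one-parameter subgroups and SL₂ pairs into a subgroup, and generation inside it. -/

set_option autoImplicit false

namespace Cfsg.Agent.H2

open Cfsg
open scoped MatrixGroups commutatorElement

variable {G : Type*} [Group G] {F : Type*} [Field F] {H : Subgroup G}

/-- A one-parameter family as a family in a subgroup. -/
def subFam (x : F → G) (h : ∀ s, x s ∈ H) (s : F) : ↥H := ⟨x s, h s⟩

lemma subFam_add {x : F → G} (hx : ∀ s t, x (s + t) = x s * x t) (h : ∀ s, x s ∈ H) (s t : F) :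
    subFam x h (s + t) = subFam x h s * subFam x h t := Subtype.ext (hx s t)

lemma paramGroup_subgroupOf {x : F → G} (hx : ∀ s t, x (s + t) = x s * x t) (h : ∀ s, x s ∈ H) :
    (paramGroup x hx).subgroupOf H = paramGroup (subFam x h) (subFam_add hx h) := by
  ext g
  simp only [Subgroup.mem_subgroupOf, mem_paramGroup]
  exact ⟨fun ⟨s, hs⟩ => ⟨s, Subtype.ext hs⟩, fun ⟨s, hs⟩ => ⟨s, congrArg Subtype.val hs⟩⟩

/-- An injective SL₂ gives pairs in the group and in any subgroup containing both families. -/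
lemma pair_subgroupOf_of_sl2Hom (ψ : SL(2, F) →* G) (hψ : Function.Injective ψ) {x y : F → G}
    (hx : ∀ s t, x (s + t) = x s * x t) (hy : ∀ s t, y (s + t) = y s * y t)
    (ex : ∀ t, ψ (H92.sx t) = x t) (ey : ∀ t, ψ (H92.sy t) = y t)
    (h1 : ∀ s, x s ∈ H) (h2 : ∀ s, y s ∈ H) :
    IsRankOnePair ((paramGroup x hx).subgroupOf H) ((paramGroup y hy).subgroupOf H) ∧
      IsPSL2PairOver F ((paramGroup x hx).subgroupOf H) ((paramGroup y hy).subgroupOf H) := by
  have hmem : ∀ M, ψ M ∈ H := by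
    intro M
    have : (⊤ : Subgroup SL(2, F)) ≤ H.comap ψ := by
      rw [← H92.sl2_closure_sx_sy, Subgroup.closure_le]
      rintro _ (⟨t, rfl⟩ | ⟨t, rfl⟩)
      · simpa [ex] using h1 t
      · simpa [ey] using h2 t
    exact this (Subgroup.mem_top M)
  refine pair_of_sl2Hom (ψ.codRestrict H hmem)
    ((MonoidHom.injective_codRestrict ψ H hmem).2 hψ) (fun g => ?_) (fun g => ?_)
  · rw [Subgroup.mem_subgroupOf, mem_paramGroup]
    exact ⟨fun ⟨s, hs⟩ => ⟨s, Subtype.ext ((ex s).trans hs)⟩,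
      fun ⟨s, hs⟩ => ⟨s, (ex s).symm.trans (congrArg Subtype.val hs)⟩⟩
  · rw [Subgroup.mem_subgroupOf, mem_paramGroup]
    exact ⟨fun ⟨s, hs⟩ => ⟨s, Subtype.ext ((ey s).trans hs)⟩,
      fun ⟨s, hs⟩ => ⟨s, (ey s).symm.trans (congrArg Subtype.val hs)⟩⟩

lemma conjBy_subgroupOf (A : Subgroup G) (g : ↥H) :
    conjBy (A.subgroupOf H) g = (conjBy A (g : G)).subgroupOf H := by
  ext x
  rw [Subgroup.mem_subgroupOf, H92.mem_conjBy, H92.mem_conjBy, Subgroup.mem_subgroupOf]
  rfl

lemma iSup_subgroupOf_eq_top (S : Set (Subgroup G)) :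
    (⨆ A ∈ (fun A : Subgroup G => A.subgroupOf (⨆ B ∈ S, B)) '' S, A) = ⊤ := by
  refine Subgroup.map_injective (Subgroup.subtype_injective _) ?_
  rw [iSup_image, Subgroup.map_iSup, ← MonoidHom.range_eq_map, Subgroup.range_subtype]
  refine iSup_congr fun A => ?_
  rw [Subgroup.map_iSup]
  exact iSup_congr fun hA => Subgroup.map_subgroupOf_eq_of_le (le_iSup₂_of_le A hA le_rfl)

end Cfsg.Agent.H2
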